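import Mathlib
import Cfsg.Agent.Lib.Classical.Herm.PSLGraphField

/-!
# Involutory graph automorphisms of `PSL_n`: the automorphism attached to a matrix
-/

set_option autoImplicit false
set_option linter.unusedSectionVars false
set_option linter.unusedSimpArgs false
set_option linter.unusedVariables false
set_option linter.style.haveILetI false

open scoped Matrix MatrixGroups
open Cfsg
open Cfsg.Agent.Lib.Classical.Herm.SplitAbs Cfsg.Agent.Lib.Classical.Herm.GLDescent
open Cfsg.Agent.Lib.Classical.Herm.PSLGraphField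
open Cfsg.Agent.Lib.Linalg.AutPSLBasic Cfsg.Agent.Lib.Linalg.AutPSLStd Cfsg.Agent.Lib.Linalg.AutPSLCount
open Cfsg.Agent.Lib.Linalg.AutPSLMain
open Module

namespace Cfsg.Agent.Lib.Classical.GraphAut.Basic

variable {F : Type*} [Field F] [Fintype F] {n : ℕ}

local notation "Pn" => Matrix.ProjectiveSpecialLinearGroup (Fin n) F

/-- The automorphism `conj(g) ∘ (inverse transpose)`. -/
noncomputable abbrev gaP (g : GL (Fin n) F) : MulAut Pn := conjP g * itP

/-- The transpose in `GL`. -/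
noncomputable def tG (h : GL (Fin n) F) : GL (Fin n) F := trI h⁻¹

theorem coe_tG (h : GL (Fin n) F) :
    ((tG h : GL (Fin n) F) : Matrix (Fin n) (Fin n) F) = (h : Matrix (Fin n) (Fin n) F)ᵀ := by
  rw [tG, coe_trI, inv_inv]

theorem tG_mul (a b : GL (Fin n) F) : tG (a * b) = tG b * tG a := by
  apply Units.ext
  rw [Units.val_mul, coe_tG, coe_tG, coe_tG, Units.val_mul, Matrix.transpose_mul]

theorem conj_gaP (h g : GL (Fin n) F) :
    (conjP h * gaP g * (conjP h)⁻¹ : MulAut Pn) = gaP (h * g * tG h) := by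
  have h1 : (itP : MulAut Pn) * (conjP h)⁻¹ = conjP (tG h) * itP := by
    rw [← conjP_inv, itP_mul_conjP]
    rfl
  rw [gaP, gaP, conjP_mul, conjP_mul]
  simp only [mul_assoc, h1]

theorem gaP_inj_iff (hn : 2 ≤ n) (g g' : GL (Fin n) F) :
    (gaP g : MulAut Pn) = gaP g' ↔ ∃ u : Fˣ, g' = sG n u * g := by
  constructor
  · intro h
    have h1 : (conjP g : MulAut Pn) = conjP g' := mul_right_cancel h
    have h2 : (conjP (g' * g⁻¹) : MulAut Pn) = 1 := by
      rw [conjP_mul, conjP_inv, ← h1, mul_inv_cancel]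
    obtain ⟨u, hu⟩ := exists_scalar_of_conjP hn h2
    exact ⟨u, by rw [← hu]; group⟩
  · rintro ⟨u, rfl⟩
    rw [gaP, gaP, conjP_mul, conjP_sG, one_mul]

theorem sG_comm (u : Fˣ) (g : GL (Fin n) F) : sG n u * g = g * sG n u :=
  ((Subgroup.mem_center_iff.mp (sG_mem_center u)) g).symm

theorem sG_inv (u : Fˣ) : sG n u⁻¹ = (sG n u)⁻¹ := by
  rw [sG, map_inv]
  rfl

theorem sG_mul (u v : Fˣ) : sG n (u * v) = sG n u * sG n v := by
  rw [sG, map_mul]
  rfl

theorem comm_iff (hn : 2 ≤ n) (g h : GL (Fin n) F) :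
    (gaP g * conjP h : MulAut Pn) = conjP h * gaP g ↔ ∃ u : Fˣ, h * g * tG h = sG n u * g := by
  have h1 : (gaP g * conjP h : MulAut Pn) = conjP h * gaP g ↔
      (conjP h * gaP g * (conjP h)⁻¹ : MulAut Pn) = gaP g := by
    rw [mul_inv_eq_iff_eq_mul]
    exact eq_comm
  rw [h1, conj_gaP, eq_comm, gaP_inj_iff hn]

/-- The square of `gaP g`. -/
theorem gaP_sq (hn : 3 ≤ n) (g : GL (Fin n) F) :
    (gaP g * gaP g : MulAut Pn) = conjP (g * trI g) := by
  haveI : NeZero n := ⟨by omega⟩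
  rw [gaP, mul_assoc, ← mul_assoc itP, itP_mul_conjP, mul_assoc, itP_mul_itP hn, mul_one, conjP_mul]

theorem gaP_ne_one (hn : 3 ≤ n) (g : GL (Fin n) F) : (gaP g : MulAut Pn) ≠ 1 := by
  intro h
  apply itP_ne hn g⁻¹ 1
  rw [fieldP_one, mul_one, conjP_inv]
  exact eq_inv_of_mul_eq_one_right h

/-- `gaP g` is an involution iff `g` is a scalar multiple of its transpose. -/
theorem orderOf_gaP_iff (hn : 3 ≤ n) (g : GL (Fin n) F) :
    orderOf (gaP g : MulAut Pn) = 2 ↔ ∃ u : Fˣ, g = sG n u * tG g := by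
  have h0 : (gaP g : MulAut Pn) ^ 2 = 1 ↔ (conjP (g * trI g) : MulAut Pn) = 1 := by
    rw [pow_two, gaP_sq hn]
  have h1 : orderOf (gaP g : MulAut Pn) = 2 ↔ (gaP g : MulAut Pn) ^ 2 = 1 := by
    constructor
    · intro h
      rw [← h]
      exact pow_orderOf_eq_one _
    · intro h
      exact orderOf_eq_prime h (gaP_ne_one hn g)
  rw [h1, h0]
  have e : g * trI g * tG g = g := by
    have h3 : trI g * tG g = 1 := by
      apply Units.ext
      rw [Units.val_mul, coe_tG, coe_trI, ← Matrix.transpose_mul, ← Units.val_mul]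
      simp
    rw [mul_assoc, h3, mul_one]
  constructor
  · intro h
    obtain ⟨u, hu⟩ := exists_scalar_of_conjP (by omega) h
    exact ⟨u, by rw [← hu, e]⟩
  · rintro ⟨u, hu⟩
    have h3 : g * trI g = sG n u := by
      have h4 : trI g * tG g = 1 := by
        apply Units.ext
        rw [Units.val_mul, coe_tG, coe_trI, ← Matrix.transpose_mul, ← Units.val_mul]
        simp
      have h5 : trI g = (tG g)⁻¹ := eq_inv_of_mul_eq_one_left h4
      rw [h5]
      exact mul_inv_eq_iff_eq_mul.mpr hu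
    rw [h3, conjP_sG]

/-- Graph automorphisms are `gaP g`. -/
theorem graph_data {γ : MulAut Pn} (h : IsGraphAutClassPSL γ) : 3 ≤ n ∧ ∃ g : GL (Fin n) F, γ = gaP g := by
  obtain ⟨hn, δ, ι, hδ, hι, rfl⟩ := h
  refine ⟨hn, ?_⟩
  obtain ⟨g, rfl⟩ := (isInnerDiagPSL_iff δ).mp hδ
  rw [isIT_eq ι hι]
  exact ⟨g, rfl⟩

theorem isGraph_gaP (hn : 3 ≤ n) (g : GL (Fin n) F) : IsGraphAutClassPSL (gaP g : MulAut Pn) :=
  ⟨hn, _, _, isInnerDiagonal_conjP g, isInverseTranspose_itP, rfl⟩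

/-- Conjugacy under `Inndiag`. -/
theorem conj_iff (hn : 2 ≤ n) (g g' : GL (Fin n) F) :
    IsConjUnder (inndiagPSL n F) (gaP g : MulAut Pn) (gaP g') ↔
      ∃ (h : GL (Fin n) F) (u : Fˣ), g' = sG n u * (h * g * tG h) := by
  rw [IsConjUnder, inndiagPSL_eq]
  constructor
  · rintro ⟨_, ⟨h, rfl⟩, hh⟩
    have h1 : (gaP g' : MulAut Pn) = gaP (h * g * tG h) := by
      rw [hh, ← conj_gaP]
      rfl
    obtain ⟨u, hu⟩ := (gaP_inj_iff hn _ _).mp h1.symm
    exact ⟨h, u, hu⟩
  · rintro ⟨h, u, rfl⟩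
    refine ⟨_, ⟨h, rfl⟩, ?_⟩
    have h1 := (gaP_inj_iff hn (h * g * tG h) (sG n u * (h * g * tG h))).mpr ⟨u, rfl⟩
    rw [← h1, ← conj_gaP]
    rfl

/-! ### Change of basis -/

section Change

variable {ι κ : Type} [Fintype ι] [DecidableEq ι] [Fintype κ] [DecidableEq κ]

/-- Conjugation of automorphisms. -/
def conjLE {V W : Type*} [AddCommGroup V] [Module F V] [AddCommGroup W] [Module F W]
    (L : V ≃ₗ[F] W) : (V ≃ₗ[F] V) ≃* (W ≃ₗ[F] W) where
  toFun g := L.symm.trans (g.trans L)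
  invFun g := L.trans (g.trans L.symm)
  left_inv g := by ext; simp
  right_inv g := by ext; simp
  map_mul' g h := by ext; simp

/-- The group isomorphism of a change of basis. -/
noncomputable def cbG (P : (κ → F) ≃ₗ[F] (ι → F)) : GL ι F ≃* GL κ F :=
  (Matrix.GeneralLinearGroup.toLin.trans (LinearMap.GeneralLinearGroup.generalLinearEquiv F (ι → F))).trans
    ((conjLE P.symm).trans
      (Matrix.GeneralLinearGroup.toLin.trans (LinearMap.GeneralLinearGroup.generalLinearEquiv F (κ → F))).symm)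

theorem mulVec_cbG (P : (κ → F) ≃ₗ[F] (ι → F)) (h : GL ι F) (x : κ → F) :
    ((cbG P h : GL κ F) : Matrix κ κ F) *ᵥ x = P.symm ((h : Matrix ι ι F) *ᵥ P x) := by
  have h1 : ∀ g : GL κ F, ∀ x, (g : Matrix κ κ F) *ᵥ x =
      (Matrix.GeneralLinearGroup.toLin.trans (LinearMap.GeneralLinearGroup.generalLinearEquiv F (κ → F))) g x :=
    fun g x => rfl
  rw [h1, cbG]
  simp only [MulEquiv.trans_apply, MulEquiv.apply_symm_apply]
  rfl

theorem mem_scalars_of (g : GL ι F) (c : Fˣ) (h : ∀ x, (g : Matrix ι ι F) *ᵥ x = (c : F) • x) : g ∈ Geo.scalars ι F := by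
  rw [Geo.mem_scalars_iff]
  refine ⟨c, ?_⟩
  apply Matrix.toLin'.injective
  apply LinearMap.ext
  intro x
  rw [Matrix.toLin'_apply, Matrix.toLin'_apply, h, Matrix.smul_mulVec, Matrix.one_mulVec]

theorem mulVec_of_mem_scalars {g : GL ι F} (h : g ∈ Geo.scalars ι F) : ∃ c : Fˣ, ∀ x, (g : Matrix ι ι F) *ᵥ x = (c : F) • x := by
  obtain ⟨c, hc⟩ := (Geo.mem_scalars_iff g).mp h
  refine ⟨c, fun x => ?_⟩
  rw [hc, Matrix.smul_mulVec, Matrix.one_mulVec]

theorem cbG_mem_scalars_iff (P : (κ → F) ≃ₗ[F] (ι → F)) (h : GL ι F) :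
    cbG P h ∈ Geo.scalars κ F ↔ h ∈ Geo.scalars ι F := by
  constructor
  · intro H
    obtain ⟨c, hc⟩ := mulVec_of_mem_scalars H
    apply mem_scalars_of h c
    intro x
    have h1 := hc (P.symm x)
    rw [mulVec_cbG, LinearEquiv.apply_symm_apply] at h1
    have h2 := congrArg P h1
    rwa [LinearEquiv.apply_symm_apply, map_smul, LinearEquiv.apply_symm_apply] at h2
  · intro H
    obtain ⟨c, hc⟩ := mulVec_of_mem_scalars H
    apply mem_scalars_of _ c
    intro x
    rw [mulVec_cbG, hc, map_smul, LinearEquiv.symm_apply_apply]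

end Change

/-! ### The centraliser in `Inndiag` -/

theorem conjP_eq_one_iff (hn : 2 ≤ n) (g : GL (Fin n) F) :
    (conjP g : MulAut Pn) = 1 ↔ g ∈ Geo.scalars (Fin n) F := by
  rw [scalars_mem_iff]
  constructor
  · exact exists_scalar_of_conjP hn
  · rintro ⟨a, rfl⟩
    exact conjP_sG a

/-- The centraliser in `Inndiag`, given a subgroup of `GL ι F` transported onto it. -/
theorem cent_iso_core (hn : 2 ≤ n) {ι : Type} [Fintype ι] [DecidableEq ι] (x : MulAut Pn)
    (P : (Fin n → F) ≃ₗ[F] (ι → F)) (S : Subgroup (GL ι F))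
    (hS : ∀ h : GL ι F, h ∈ S ↔ x * conjP (cbG P h) = conjP (cbG P h) * x) :
    Nonempty (↥(inndiagPSL n F ⊓ Subgroup.centralizer {x}) ≃* projQuot S) := by
  classical
  let f₀ : S →* MulAut Pn := (conjHom : GL (Fin n) F →* MulAut Pn).comp ((cbG P).toMonoidHom.comp S.subtype)
  have hf₀ : ∀ m : S, f₀ m = conjP (cbG P (m : GL ι F)) := fun m => rfl
  have hmem : ∀ m, f₀ m ∈ inndiagPSL n F ⊓ Subgroup.centralizer {x} := by
    intro m
    refine Subgroup.mem_inf.mpr ⟨?_, ?_⟩
    · rw [inndiagPSL_eq]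
      exact ⟨_, rfl⟩
    · rw [Subgroup.mem_centralizer_iff]
      rintro y rfl
      rw [hf₀]
      exact (hS _).mp m.2
  let f : S →* ↥(inndiagPSL n F ⊓ Subgroup.centralizer {x}) := f₀.codRestrict _ hmem
  have hfs : Function.Surjective f := by
    rintro ⟨β, hβ⟩
    obtain ⟨hβ1, hβ2⟩ := Subgroup.mem_inf.mp hβ
    rw [inndiagPSL_eq] at hβ1
    obtain ⟨g, rfl⟩ := hβ1
    rw [Subgroup.mem_centralizer_iff] at hβ2
    have hβ3 : x * conjP g = conjP g * x := hβ2 x rfl
    have h1 : (cbG P) ((cbG P).symm g) = g := MulEquiv.apply_symm_apply _ _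
    refine ⟨⟨(cbG P).symm g, (hS _).mpr (by rw [h1]; exact hβ3)⟩, ?_⟩
    apply Subtype.ext
    change conjP (cbG P ((cbG P).symm g)) = conjP g
    rw [h1]
  have hker : f.ker = (Geo.scalars ι F).subgroupOf S := by
    ext m
    rw [MonoidHom.mem_ker, Subgroup.mem_subgroupOf, ← cbG_mem_scalars_iff P, ← conjP_eq_one_iff hn]
    rw [Subtype.ext_iff]
    rfl
  exact ⟨(QuotientGroup.quotientKerEquivOfSurjective f hfs).symm.trans
    (QuotientGroup.quotientMulEquivOfEq hker)⟩

/-! ### The number of classes -/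

/-- The number of `PSL`-classes in the `PGL`-class. -/
theorem split_count_ga (hn : 2 ≤ n) (x : MulAut Pn) (W : Subgroup Fˣ)
    (h1 : ∀ g : GL (Fin n) F, x * conjP g = conjP g * x → Matrix.GeneralLinearGroup.det g ∈ W)
    (h2 : ∀ w ∈ W, ∃ u : GL (Fin n) F, x * conjP u = conjP u * x ∧ Matrix.GeneralLinearGroup.det u = w) :
    splitClassCount (inndiagPSL n F) (Inn Pn) x = W.index := by
  classical
  haveI : NeZero n := ⟨by omega⟩
  apply split_count_abs (conjHom : GL (Fin n) F →* MulAut Pn) Matrix.GeneralLinearGroup.det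
  · intro a
    refine ⟨dil a, ?_⟩
    apply Units.ext
    rw [Matrix.GeneralLinearGroup.val_det_apply]
    exact det_dil a
  · exact inndiagPSL_eq
  · rintro _ ⟨a, rfl⟩
    obtain ⟨s, rfl⟩ := mkP_surjective a
    refine ⟨Matrix.SpecialLinearGroup.toGL s, ?_, conj_mk_eq_conjP s⟩
    apply Units.ext
    rw [Matrix.GeneralLinearGroup.val_det_apply]
    exact s.2
  · intro g hg
    have hdet : (g : Matrix (Fin n) (Fin n) F).det = 1 := by
      have := congrArg Units.val hg
      rwa [Matrix.GeneralLinearGroup.val_det_apply] at this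
    let s : Matrix.SpecialLinearGroup (Fin n) F := ⟨(g : Matrix (Fin n) (Fin n) F), hdet⟩
    refine ⟨mkP s, ?_⟩
    have h1 : Matrix.SpecialLinearGroup.toGL s = g := by
      apply Units.ext
      rfl
    rw [← h1]
    exact conj_mk_eq_conjP s
  · exact h1
  · exact h2

end Cfsg.Agent.Lib.Classical.GraphAut.Basic
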