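import Mathlib
import Cfsg.Agent.Lib.Classical.GraphAut.Basic
import Cfsg.Agent.Lib.Classical.Symp.DecompMax
import Cfsg.Agent.Lib.Classical.Symp.SympBasis

/-!
# Involutory graph automorphisms of `PSL_n`: the bilinear form of an automorphism
-/

set_option autoImplicit false
set_option linter.unusedSectionVars false
set_option linter.unusedSimpArgs false
set_option linter.unusedVariables false
set_option linter.style.haveILetI false

open scoped Matrix MatrixGroups
open Cfsg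
open Cfsg.Agent.Lib.Classical.Herm.SplitAbs Cfsg.Agent.Lib.Classical.Herm.GLDescent
open Cfsg.Agent.Lib.Classical.Herm.PSLGraphField
open Cfsg.Agent.Lib.Linalg.AutPSLBasic Cfsg.Agent.Lib.Linalg.AutPSLStd Cfsg.Agent.Lib.Linalg.AutPSLCount
open Cfsg.Agent.Lib.Linalg.AutPSLMain
open Cfsg.Agent.Lib.Classical.GraphAut.Basic
open Module

namespace Cfsg.Agent.Lib.Classical.GraphAut.Forms

variable {F : Type*} [Field F] [Fintype F] {n : ℕ}

local notation "Pn" => Matrix.ProjectiveSpecialLinearGroup (Fin n) F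

section Bil

variable {κ : Type*} [Fintype κ] [DecidableEq κ]

/-- The bilinear form of a matrix. -/
def fB (B : Matrix κ κ F) (x y : κ → F) : F := x ⬝ᵥ (B *ᵥ y)

theorem fB_add_left (B : Matrix κ κ F) (x x' y : κ → F) : fB B (x + x') y = fB B x y + fB B x' y :=
  add_dotProduct _ _ _

theorem fB_add_right (B : Matrix κ κ F) (x y y' : κ → F) : fB B x (y + y') = fB B x y + fB B x y' := by
  rw [fB, Matrix.mulVec_add, dotProduct_add]
  rfl

theorem fB_smul_left (B : Matrix κ κ F) (c : F) (x y : κ → F) : fB B (c • x) y = c * fB B x y :=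
  smul_dotProduct _ _ _

theorem fB_smul_right (B : Matrix κ κ F) (c : F) (x y : κ → F) : fB B x (c • y) = c * fB B x y := by
  rw [fB, Matrix.mulVec_smul, dotProduct_smul]
  rfl

theorem fB_mulVec (B h : Matrix κ κ F) (x y : κ → F) :
    fB B (h *ᵥ x) (h *ᵥ y) = fB (hᵀ * B * h) x y := by
  simp only [fB]
  rw [← Matrix.mulVec_mulVec, ← Matrix.mulVec_mulVec, Matrix.dotProduct_mulVec x hᵀ, Matrix.vecMul_transpose]

theorem fB_ext {A C : Matrix κ κ F} (h : ∀ x y, fB A x y = fB C x y) : A = C := by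
  ext i j
  have := h (Pi.single i 1) (Pi.single j 1)
  simpa [fB, Matrix.mulVec_single, dotProduct, Pi.single_apply] using this

theorem fB_smul_mat (c : F) (A : Matrix κ κ F) (x y : κ → F) : fB (c • A) x y = c * fB A x y := by
  simp only [fB, Matrix.smul_mulVec, dotProduct_smul, smul_eq_mul]

theorem fB_transpose (A : Matrix κ κ F) (x y : κ → F) : fB Aᵀ x y = fB A y x := by
  simp only [fB]
  rw [Matrix.mulVec_transpose, dotProduct_comm, Matrix.dotProduct_mulVec]

/-- The bilinear form as a linear map. -/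
noncomputable def bB (B : Matrix κ κ F) : LinearMap.BilinForm F (κ → F) := Matrix.toBilin' B

theorem bB_apply (B : Matrix κ κ F) (x y : κ → F) : bB B x y = fB B x y := Matrix.toBilin'_apply' B x y

theorem fB_right_nondeg (B : GL κ F) (y : κ → F) (h : ∀ x, fB (B : Matrix κ κ F) x y = 0) : y = 0 := by
  have h1 : (B : Matrix κ κ F) *ᵥ y = 0 := by
    funext i
    have := h (Pi.single i 1)
    simpa [fB, dotProduct, Pi.single_apply] using this
  have h2 := congrArg (fun z => ((B⁻¹ : GL κ F) : Matrix κ κ F) *ᵥ z) h1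
  simp only [Matrix.mulVec_mulVec, Matrix.mulVec_zero] at h2
  rwa [← Units.val_mul, inv_mul_cancel, Units.val_one, Matrix.one_mulVec] at h2

theorem fB_left_nondeg (B : GL κ F) (x : κ → F) (h : ∀ y, fB (B : Matrix κ κ F) x y = 0) : x = 0 := by
  have h1 : (B : Matrix κ κ F)ᵀ *ᵥ x = 0 := by
    funext i
    have := h (Pi.single i 1)
    rw [fB, Matrix.dotProduct_mulVec, ← Matrix.mulVec_transpose] at this
    simpa [dotProduct, Pi.single_apply] using this
  have hu : IsUnit (B : Matrix κ κ F)ᵀ := by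
    rw [Matrix.isUnit_transpose]
    exact B.isUnit
  exact (Matrix.mulVec_injective_iff_isUnit.mpr hu) (by rw [h1, Matrix.mulVec_zero])

theorem bB_nondeg (B : GL κ F) : (bB (B : Matrix κ κ F)).Nondegenerate := by
  refine ⟨fun x hx => fB_left_nondeg B x (fun y => ?_), fun y hy => fB_right_nondeg B y (fun x => ?_)⟩
  · rw [← bB_apply]
    exact hx y
  · rw [← bB_apply]
    exact hy x

end Bil

/-- An element of `GL` from a linear equivalence. -/
noncomputable def ofE {κ : Type} [Fintype κ] [DecidableEq κ] (P : (κ → F) ≃ₗ[F] (κ → F)) : GL κ F :=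
  (Matrix.GeneralLinearGroup.toLin.trans (LinearMap.GeneralLinearGroup.generalLinearEquiv F (κ → F))).symm P

theorem mulVec_ofE {κ : Type} [Fintype κ] [DecidableEq κ] (P : (κ → F) ≃ₗ[F] (κ → F)) (x : κ → F) :
    ((ofE P : GL κ F) : Matrix κ κ F) *ᵥ x = P x := by
  have h1 : ∀ g : GL κ F, ∀ x, (g : Matrix κ κ F) *ᵥ x =
      (Matrix.GeneralLinearGroup.toLin.trans (LinearMap.GeneralLinearGroup.generalLinearEquiv F (κ → F))) g x :=
    fun g x => rfl
  rw [h1, ofE, MulEquiv.apply_symm_apply]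

/-- A form on a model space, pulled back to `Fin n`. -/
theorem exists_B_of_bilin {ι : Type} [Fintype ι] [DecidableEq ι] (f : LinearMap.BilinForm F (ι → F))
    (hf : ∀ y, (∀ x, f x y = 0) → y = 0) (P₀ : (Fin n → F) ≃ₗ[F] (ι → F)) :
    ∃ B : GL (Fin n) F, ∀ x y, fB (B : Matrix (Fin n) (Fin n) F) x y = f (P₀ x) (P₀ y) := by
  classical
  let g : LinearMap.BilinForm F (Fin n → F) := f.comp (P₀ : (Fin n → F) →ₗ[F] (ι → F)) P₀
  let M : Matrix (Fin n) (Fin n) F := LinearMap.BilinForm.toMatrix' g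
  have hM : ∀ x y, fB M x y = f (P₀ x) (P₀ y) := by
    intro x y
    rw [← bB_apply, bB, Matrix.toBilin'_toMatrix']
    rfl
  have hu : IsUnit M := by
    rw [← Matrix.mulVec_injective_iff_isUnit]
    intro y y' hyy
    have hy' : M *ᵥ (y - y') = 0 := by rw [Matrix.mulVec_sub, hyy, sub_self]
    have h1 : P₀ (y - y') = 0 := by
      apply hf
      intro x
      obtain ⟨z, rfl⟩ := P₀.surjective x
      rw [← hM, fB, hy', dotProduct_zero]
    exact sub_eq_zero.mp (P₀.map_eq_zero_iff.mp h1)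
  obtain ⟨B, hB⟩ := hu
  exact ⟨B, fun x y => by rw [hB, hM]⟩

/-! ### Centraliser in terms of the form -/

theorem central_swap {G : Type*} [Group G] {h b t s : G} (hs : ∀ g, s * g = g * s) :
    h * b⁻¹ * t = s * b⁻¹ ↔ t * b * h = s * b := by
  constructor
  · intro H
    have ht : t = b * h⁻¹ * (s * b⁻¹) := by
      rw [← H]
      group
    rw [ht]
    have h1 : b * h⁻¹ * (s * b⁻¹) * b * h = b * (h⁻¹ * s * h) := by group
    rw [h1, ← hs h⁻¹, inv_mul_cancel_right]
    exact (hs b).symm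
  · intro H
    have ht : t = s * b * h⁻¹ * b⁻¹ := by
      rw [← H]
      group
    rw [ht]
    have h1 : h * b⁻¹ * (s * b * h⁻¹ * b⁻¹) = h * (b⁻¹ * (s * b)) * h⁻¹ * b⁻¹ := by group
    rw [h1, hs b, inv_mul_cancel_left, ← hs h, mul_inv_cancel_right]
    
theorem coe_sG_mul_apply (u : Fˣ) (B : GL (Fin n) F) :
    ((sG n u * B : GL (Fin n) F) : Matrix (Fin n) (Fin n) F) = (u : F) • (B : Matrix (Fin n) (Fin n) F) := by
  rw [Units.val_mul, coe_sG]
  ext i j
  simp [Matrix.scalar_apply, Matrix.diagonal_mul]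

/-- The centraliser of `gaP B⁻¹` consists of the similarities of the form of `B`. -/
theorem comm_form (hn : 2 ≤ n) (B h : GL (Fin n) F) :
    (gaP B⁻¹ * conjP h : MulAut Pn) = conjP h * gaP B⁻¹ ↔
      ∃ a : Fˣ, ∀ x y, fB (B : Matrix (Fin n) (Fin n) F) ((h : Matrix (Fin n) (Fin n) F) *ᵥ x) ((h : Matrix (Fin n) (Fin n) F) *ᵥ y) =
        a * fB (B : Matrix (Fin n) (Fin n) F) x y := by
  rw [comm_iff hn]
  have e : ∀ u : Fˣ, h * B⁻¹ * tG h = sG n u * B⁻¹ ↔ tG h * B * h = sG n u * B := fun u =>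
    central_swap (fun g => sG_comm u g)
  simp only [e]
  constructor
  · rintro ⟨u, hu⟩
    refine ⟨u, fun x y => ?_⟩
    have h1 := congrArg (fun w : GL (Fin n) F => (w : Matrix (Fin n) (Fin n) F)) hu
    simp only [Units.val_mul, coe_tG, coe_sG] at h1
    have h2 : Matrix.scalar (Fin n) (u : F) * (B : Matrix (Fin n) (Fin n) F) = (u : F) • (B : Matrix (Fin n) (Fin n) F) := by
      rw [← coe_sG_mul_apply]
      rfl
    rw [fB_mulVec, h1, h2, fB_smul_mat]
  · rintro ⟨a, ha⟩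
    refine ⟨a, ?_⟩
    apply Units.ext
    rw [coe_sG_mul_apply]
    simp only [Units.val_mul, coe_tG]
    apply fB_ext
    intro x y
    rw [← fB_mulVec, ha, fB_smul_mat]

/-- Conjugacy in terms of the form. -/
theorem conj_form (hn : 2 ≤ n) (B B' : GL (Fin n) F) :
    IsConjUnder (inndiagPSL n F) (gaP B⁻¹ : MulAut Pn) (gaP B'⁻¹) ↔
      ∃ (k : GL (Fin n) F) (c : Fˣ), ∀ x y, fB (B' : Matrix (Fin n) (Fin n) F) x y =
        c * fB (B : Matrix (Fin n) (Fin n) F) ((k : Matrix (Fin n) (Fin n) F) *ᵥ x) ((k : Matrix (Fin n) (Fin n) F) *ᵥ y) := by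
  rw [conj_iff hn]
  have htG : ∀ h : GL (Fin n) F, (tG h)⁻¹ = tG h⁻¹ := by
    intro h
    apply inv_eq_of_mul_eq_one_right
    rw [← tG_mul, inv_mul_cancel]
    apply Units.ext
    rw [coe_tG]
    simp
  constructor
  · rintro ⟨h, u, hu⟩
    refine ⟨h⁻¹, u⁻¹, fun x y => ?_⟩
    have h1 : B' = sG n u⁻¹ * (tG h⁻¹ * B * h⁻¹) := by
      have h2 := congrArg (fun w : GL (Fin n) F => w⁻¹) hu
      simp only [inv_inv] at h2
      rw [h2, mul_inv_rev, mul_inv_rev, mul_inv_rev, inv_inv, htG, ← sG_inv, sG_comm u⁻¹ (tG h⁻¹ * B * h⁻¹)]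
      group
    rw [h1, coe_sG_mul_apply, fB_smul_mat, fB_mulVec]
    simp only [Units.val_mul, coe_tG]
  · rintro ⟨k, c, hk⟩
    refine ⟨k⁻¹, c⁻¹, ?_⟩
    have h1 : B' = sG n c * (tG k * B * k) := by
      apply Units.ext
      rw [coe_sG_mul_apply]
      apply fB_ext
      intro x y
      rw [hk, fB_smul_mat, fB_mulVec]
      simp only [Units.val_mul, coe_tG]
    have h2 : B'⁻¹ = (sG n c * (tG k * B * k))⁻¹ := by rw [← h1]
    rw [h2, mul_inv_rev, mul_inv_rev, mul_inv_rev, htG, ← sG_inv, sG_comm c⁻¹ (k⁻¹ * B⁻¹ * tG k⁻¹)]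
    group

/-! ### Types of forms -/

/-- The form is symmetric. -/
def IsSy (B : GL (Fin n) F) : Prop := ∀ x y, fB (B : Matrix (Fin n) (Fin n) F) x y = fB (B : Matrix (Fin n) (Fin n) F) y x

/-- The form is alternating. -/
def IsAl (B : GL (Fin n) F) : Prop := ∀ x, fB (B : Matrix (Fin n) (Fin n) F) x x = 0

theorem skew_of_alt {B : GL (Fin n) F} (h : IsAl B) (x y : Fin n → F) :
    fB (B : Matrix (Fin n) (Fin n) F) x y = - fB (B : Matrix (Fin n) (Fin n) F) y x := by
  have h1 := h (x + y)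
  rw [fB_add_left, fB_add_right, fB_add_right, h x, h y] at h1
  linear_combination h1

theorem coe_tG_of_form (B : GL (Fin n) F) (c : Fˣ) (h : ∀ x y, fB (B : Matrix (Fin n) (Fin n) F) x y = c * fB (B : Matrix (Fin n) (Fin n) F) y x) :
    B = sG n c * tG B := by
  apply Units.ext
  rw [coe_sG_mul_apply, coe_tG]
  apply fB_ext
  intro x y
  rw [h, fB_smul_mat, fB_transpose]

theorem tG_inv (h : GL (Fin n) F) : tG h⁻¹ = (tG h)⁻¹ := by
  symm
  apply inv_eq_of_mul_eq_one_right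
  rw [← tG_mul, inv_mul_cancel]
  apply Units.ext
  rw [coe_tG]
  simp

theorem orderOf_of_form (hn : 3 ≤ n) (B : GL (Fin n) F) (c : Fˣ)
    (h : ∀ x y, fB (B : Matrix (Fin n) (Fin n) F) x y = c * fB (B : Matrix (Fin n) (Fin n) F) y x) :
    orderOf (gaP B⁻¹ : MulAut Pn) = 2 := by
  rw [orderOf_gaP_iff hn]
  refine ⟨c⁻¹, ?_⟩
  have h1 := coe_tG_of_form B c h
  rw [tG_inv, sG_inv]
  conv_lhs => rw [h1, mul_inv_rev, ← sG_inv, ← sG_comm]
  rw [sG_inv]

theorem orderOf_of_sym (hn : 3 ≤ n) {B : GL (Fin n) F} (h : IsSy B) : orderOf (gaP B⁻¹ : MulAut Pn) = 2 :=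
  orderOf_of_form hn B 1 (fun x y => by rw [h x y, Units.val_one, one_mul])

theorem orderOf_of_alt (hn : 3 ≤ n) {B : GL (Fin n) F} (h : IsAl B) : orderOf (gaP B⁻¹ : MulAut Pn) = 2 :=
  orderOf_of_form hn B (-1) (fun x y => by
    rw [skew_of_alt h x y, Units.val_neg, Units.val_one]
    ring)

/-- Involutory graph automorphisms and forms. -/
theorem inv_data {γ : MulAut Pn} (hγ : IsGraphAutClassPSL γ) (hγ2 : orderOf γ = 2) :
    ∃ B : GL (Fin n) F, γ = gaP B⁻¹ ∧ (IsAl B ∨ (IsSy B ∧ ¬ IsAl B)) := by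
  obtain ⟨hn, g, rfl⟩ := graph_data hγ
  obtain ⟨u, hu⟩ := (orderOf_gaP_iff hn g).mp hγ2
  refine ⟨g⁻¹, by rw [inv_inv], ?_⟩
  obtain ⟨B, hB⟩ : ∃ B, B = g⁻¹ := ⟨_, rfl⟩
  rw [← hB]
  have h0 : B = sG n u⁻¹ * tG B := by
    rw [hB, tG_inv]
    conv_lhs => rw [hu, mul_inv_rev, ← sG_inv, ← sG_comm]
  have h1 : ∀ x y, fB (B : Matrix (Fin n) (Fin n) F) x y = ((u⁻¹ : Fˣ) : F) * fB (B : Matrix (Fin n) (Fin n) F) y x := by
    intro x y
    conv_lhs => rw [h0]
    rw [coe_sG_mul_apply, fB_smul_mat, coe_tG, fB_transpose]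
  obtain ⟨c, hc⟩ : ∃ c : F, c = ((u⁻¹ : Fˣ) : F) := ⟨_, rfl⟩
  rw [← hc] at h1
  have hc2 : c * c = 1 := by
    haveI : NeZero n := ⟨by omega⟩
    obtain ⟨x, y, hxy⟩ : ∃ x y, fB (B : Matrix (Fin n) (Fin n) F) x y ≠ 0 := by
      by_contra hcon
      push Not at hcon
      have hy : (fun _ => 1 : Fin n → F) = 0 := fB_right_nondeg B _ (fun x => hcon x _)
      have := congrFun hy ⟨0, by omega⟩
      exact one_ne_zero this
    have h3 := h1 x y
    rw [h1 y x] at h3
    have h4 : (c * c - 1) * fB (B : Matrix (Fin n) (Fin n) F) x y = 0 := by linear_combination -h3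
    exact sub_eq_zero.mp ((mul_eq_zero.mp h4).resolve_right hxy)
  have hc3 : c = 1 ∨ c = -1 := mul_self_eq_one_iff.mp hc2
  by_cases hA : IsAl B
  · exact Or.inl hA
  · refine Or.inr ⟨?_, hA⟩
    rcases hc3 with rfl | rfl
    · intro x y
      rw [h1 x y, one_mul]
    · have h2 : (2 : F) = 0 := by
        simp only [IsAl, not_forall] at hA
        obtain ⟨x, hx⟩ := hA
        have h3 := h1 x x
        have h4 : 2 * fB (B : Matrix (Fin n) (Fin n) F) x x = 0 := by linear_combination h3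
        exact (mul_eq_zero.mp h4).resolve_right hx
      intro x y
      rw [h1 x y]
      linear_combination (- fB (B : Matrix (Fin n) (Fin n) F) y x) * h2

/-- An alternating nondegenerate form lives in even dimension. -/
theorem even_of_alt {B : GL (Fin n) F} (h : IsAl B) : Even n := by
  have hA : (bB (B : Matrix (Fin n) (Fin n) F)).IsAlt := fun x => by rw [bB_apply]; exact h x
  obtain ⟨k, hk⟩ := Cfsg.Agent.Lib.Classical.Symp.DecompMax.even_finrank n _ hA (bB_nondeg B) (by simp)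
  exact ⟨k, by omega⟩

/-! ### The centraliser in terms of a model -/

theorem cent_iso_form (hn : 2 ≤ n) (B : GL (Fin n) F) {ι : Type} [Fintype ι] [DecidableEq ι]
    (P : (Fin n → F) ≃ₗ[F] (ι → F)) (S : Subgroup (GL ι F))
    (hS : ∀ h : GL ι F, h ∈ S ↔ ∃ a : Fˣ, ∀ x y, fB (B : Matrix (Fin n) (Fin n) F) (P.symm ((h : Matrix ι ι F) *ᵥ P x)) (P.symm ((h : Matrix ι ι F) *ᵥ P y)) =
      a * fB (B : Matrix (Fin n) (Fin n) F) x y) :
    Nonempty (↥(inndiagPSL n F ⊓ Subgroup.centralizer {(gaP B⁻¹ : MulAut Pn)}) ≃* projQuot S) := by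
  apply cent_iso_core hn _ P
  intro h
  rw [comm_form hn, hS]
  simp only [mulVec_cbG]

/-- Model: a bilinear form. -/
theorem cent_iso_bil (hn : 2 ≤ n) (B : GL (Fin n) F) {ι : Type} [Fintype ι] [DecidableEq ι]
    (P : (Fin n → F) ≃ₗ[F] (ι → F)) (f : (ι → F) → (ι → F) → F) (c : Fˣ)
    (hf : ∀ x y, f (P x) (P y) = c * fB (B : Matrix (Fin n) (Fin n) F) x y) :
    Nonempty (↥(inndiagPSL n F ⊓ Subgroup.centralizer {(gaP B⁻¹ : MulAut Pn)}) ≃* projQuot (Geo.similarityGroup f)) := by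
  apply cent_iso_form hn B P
  intro h
  have hc : (c : F) ≠ 0 := c.ne_zero
  constructor
  · rintro ⟨a, ha⟩
    refine ⟨a, fun x y => ?_⟩
    have h1 := ha (P x) (P y)
    have h2 := hf (P.symm ((h : Matrix ι ι F) *ᵥ P x)) (P.symm ((h : Matrix ι ι F) *ᵥ P y))
    rw [LinearEquiv.apply_symm_apply, LinearEquiv.apply_symm_apply, h1, hf x y] at h2
    apply mul_left_cancel₀ hc
    linear_combination -h2
  · rintro ⟨a, ha⟩
    refine ⟨a, fun u v => ?_⟩
    obtain ⟨x, rfl⟩ := P.surjective u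
    obtain ⟨y, rfl⟩ := P.surjective v
    have h2 := hf (P.symm ((h : Matrix ι ι F) *ᵥ P x)) (P.symm ((h : Matrix ι ι F) *ᵥ P y))
    rw [LinearEquiv.apply_symm_apply, LinearEquiv.apply_symm_apply, ha x y] at h2
    rw [h2, hf x y]
    ring

theorem polarize_sym (h2 : (2 : F) ≠ 0) {κ : Type} [Fintype κ] [DecidableEq κ] {A C : Matrix κ κ F}
    (hA : ∀ x y, fB A x y = fB A y x) (hC : ∀ x y, fB C x y = fB C y x)
    (h : ∀ x, fB A x x = fB C x x) (x y : κ → F) : fB A x y = fB C x y := by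
  have h1 := h (x + y)
  simp only [fB_add_left, fB_add_right] at h1
  rw [h x, h y, hA y x, hC y x] at h1
  apply mul_left_cancel₀ h2
  linear_combination h1

/-- Model: a quadratic form. -/
theorem cent_iso_quad (hn : 2 ≤ n) (h2 : (2 : F) ≠ 0) {B : GL (Fin n) F} (hB : IsSy B) {ι : Type} [Fintype ι] [DecidableEq ι]
    (P : (Fin n → F) ≃ₗ[F] (ι → F)) (Q : (ι → F) → F) (c : Fˣ)
    (hQ : ∀ x, Q (P x) = c * fB (B : Matrix (Fin n) (Fin n) F) x x) :
    Nonempty (↥(inndiagPSL n F ⊓ Subgroup.centralizer {(gaP B⁻¹ : MulAut Pn)}) ≃* PGO F Q) := by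
  apply cent_iso_form hn B P
  intro h
  have hc : (c : F) ≠ 0 := c.ne_zero
  constructor
  · rintro ⟨a, ha⟩
    refine ⟨a, ?_⟩
    -- polarise
    let k : Matrix (Fin n) (Fin n) F := LinearMap.toMatrix' ((P.symm : (ι → F) →ₗ[F] (Fin n → F)) ∘ₗ (Matrix.mulVecLin (h : Matrix ι ι F)) ∘ₗ (P : (Fin n → F) →ₗ[F] (ι → F)))
    have hk : ∀ x, k *ᵥ x = P.symm ((h : Matrix ι ι F) *ᵥ P x) := by
      intro x
      rw [LinearMap.toMatrix'_mulVec]
      rfl
    have h3 : ∀ x, fB (kᵀ * (B : Matrix (Fin n) (Fin n) F) * k) x x = fB ((a : F) • (B : Matrix (Fin n) (Fin n) F)) x x := by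
      intro x
      rw [← fB_mulVec, hk, fB_smul_mat]
      have h1 := ha (P x)
      have h4 := hQ (P.symm ((h : Matrix ι ι F) *ᵥ P x))
      rw [LinearEquiv.apply_symm_apply, h1, hQ x] at h4
      apply mul_left_cancel₀ hc
      linear_combination -h4
    intro x y
    have h5 := polarize_sym h2 (A := kᵀ * (B : Matrix (Fin n) (Fin n) F) * k) (C := (a : F) • (B : Matrix (Fin n) (Fin n) F))
      (by
        intro x y
        rw [← fB_mulVec, ← fB_mulVec]
        exact hB _ _)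
      (by
        intro x y
        rw [fB_smul_mat, fB_smul_mat, hB x y])
      h3 x y
    rw [← fB_mulVec, hk, hk, fB_smul_mat] at h5
    exact h5
  · rintro ⟨a, ha⟩
    refine ⟨a, fun v => ?_⟩
    obtain ⟨x, rfl⟩ := P.surjective v
    have h3 := hQ (P.symm ((h : Matrix ι ι F) *ᵥ P x))
    rw [LinearEquiv.apply_symm_apply, ha x x] at h3
    rw [h3, hQ x]
    ring

end Cfsg.Agent.Lib.Classical.GraphAut.Forms
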