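import Mathlib
import Cfsg.Agent.Lib.Classical.GraphAut.Forms
import Cfsg.Agent.Lib.Classical.Witt.Index
import Cfsg.Agent.Lib.Classical.Witt.Disc
import Cfsg.Agent.Lib.Classical.OrthAut.FldOdd

/-!
# Involutory graph automorphisms of `PSL_n`: the models of the forms
-/

set_option autoImplicit false
set_option linter.unusedSectionVars false
set_option linter.unusedSimpArgs false
set_option linter.unusedVariables false
set_option linter.style.haveILetI false

open scoped Matrix MatrixGroups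
open Cfsg
open Cfsg.Agent.Lib.Classical.Herm.GLDescent
open Cfsg.Agent.Lib.Linalg.AutPSLBasic Cfsg.Agent.Lib.Linalg.AutPSLStd
open Cfsg.Agent.Lib.Classical.GraphAut.Basic Cfsg.Agent.Lib.Classical.GraphAut.Forms
open Cfsg.Agent.Lib.Linalg.OrthModels Cfsg.Agent.Lib.Classical.Witt.Index Cfsg.Agent.Lib.Classical.Witt.Hyp
open Cfsg.Agent.Lib.Classical.Symp.Basic
open Module QuadraticMap

namespace Cfsg.Agent.Lib.Classical.GraphAut.Models

variable {F : Type*} [Field F] [Fintype F] {n : ℕ}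

local notation "Pn" => Matrix.ProjectiveSpecialLinearGroup (Fin n) F

/-! ### Conjugacy from models -/

/-- Same bilinear model up to scalars implies conjugate. -/
theorem conj_of_model (hn : 2 ≤ n) {B B' : GL (Fin n) F} {ι : Type} (f : (ι → F) → (ι → F) → F)
    (P P' : (Fin n → F) ≃ₗ[F] (ι → F)) (c c' : Fˣ)
    (h : ∀ x y, f (P x) (P y) = c * fB (B : Matrix (Fin n) (Fin n) F) x y)
    (h' : ∀ x y, f (P' x) (P' y) = c' * fB (B' : Matrix (Fin n) (Fin n) F) x y) :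
    IsConjUnder (inndiagPSL n F) (gaP B⁻¹ : MulAut Pn) (gaP B'⁻¹) := by
  rw [conj_form hn]
  refine ⟨ofE (P'.trans P.symm), c'⁻¹ * c, fun x y => ?_⟩
  rw [mulVec_ofE, mulVec_ofE, Units.val_mul, mul_assoc, ← h]
  simp only [LinearEquiv.trans_apply, LinearEquiv.apply_symm_apply]
  rw [h' x y, ← mul_assoc, Units.val_inv_eq_inv_val, inv_mul_cancel₀ c'.ne_zero, one_mul]

/-- Same quadratic model up to scalars implies conjugate. -/
theorem conj_of_quad (hn : 2 ≤ n) (h2 : (2 : F) ≠ 0) {B B' : GL (Fin n) F} (hB : IsSy B) (hB' : IsSy B') {ι : Type}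
    (Q : (ι → F) → F) (P P' : (Fin n → F) ≃ₗ[F] (ι → F)) (c c' : Fˣ)
    (h : ∀ x, Q (P x) = c * fB (B : Matrix (Fin n) (Fin n) F) x x)
    (h' : ∀ x, Q (P' x) = c' * fB (B' : Matrix (Fin n) (Fin n) F) x x) :
    IsConjUnder (inndiagPSL n F) (gaP B⁻¹ : MulAut Pn) (gaP B'⁻¹) := by
  rw [conj_form hn]
  have hk := mulVec_ofE (P'.trans P.symm)
  refine ⟨ofE (P'.trans P.symm), c'⁻¹ * c, ?_⟩
  obtain ⟨K, hK⟩ : ∃ K : GL (Fin n) F, K = ofE (P'.trans P.symm) := ⟨_, rfl⟩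
  rw [← hK] at hk ⊢
  have h3 : ∀ x, fB (B' : Matrix (Fin n) (Fin n) F) x x =
      fB (((c'⁻¹ * c : Fˣ) : F) • ((K : Matrix (Fin n) (Fin n) F)ᵀ * (B : Matrix (Fin n) (Fin n) F) * (K : Matrix (Fin n) (Fin n) F))) x x := by
    intro x
    rw [fB_smul_mat, ← fB_mulVec, hk, Units.val_mul, mul_assoc, ← h]
    simp only [LinearEquiv.trans_apply, LinearEquiv.apply_symm_apply]
    rw [h' x, ← mul_assoc, Units.val_inv_eq_inv_val, inv_mul_cancel₀ c'.ne_zero, one_mul]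
  intro x y
  have h5 := polarize_sym h2 hB' (by
    intro x y
    rw [fB_smul_mat, fB_smul_mat, ← fB_mulVec, ← fB_mulVec]
    rw [hB _ _]) h3 x y
  rw [h5, fB_smul_mat, fB_mulVec]

/-- Alternating forms are not conjugate to nonalternating ones. -/
theorem not_conj_alt (hn : 2 ≤ n) {B B' : GL (Fin n) F} (hB : IsAl B) (hB' : ¬ IsAl B') :
    ¬ IsConjUnder (inndiagPSL n F) (gaP B⁻¹ : MulAut Pn) (gaP B'⁻¹) := by
  rw [conj_form hn]
  rintro ⟨k, c, h⟩
  apply hB'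
  intro x
  rw [h, hB _, mul_zero]

/-! ### Alternating models -/

theorem alt_model {B : GL (Fin n) F} (h : IsAl B) {m : ℕ} (hn : n = 2 * m) :
    ∃ P : (Fin n → F) ≃ₗ[F] (Fin m ⊕ Fin m → F), ∀ x y, sympForm m F (P x) (P y) = fB (B : Matrix (Fin n) (Fin n) F) x y := by
  have hA : (bB (B : Matrix (Fin n) (Fin n) F)).IsAlt := fun x => by rw [bB_apply]; exact h x
  obtain ⟨e, he⟩ := Cfsg.Agent.Lib.Classical.Symp.SympBasis.exists_sympEquiv _ hA (bB_nondeg B) (k := m) (by simp [hn])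
  exact ⟨e, fun x y => by rw [he, bB_apply]⟩

/-- The standard `Fin n` form. -/
noncomputable def stdE (m : ℕ) (F : Type*) [Field F] (hn : n = 2 * m) : (Fin n → F) ≃ₗ[F] (Fin m ⊕ Fin m → F) :=
  LinearEquiv.ofFinrankEq _ _ (by simp [hn, two_mul])

theorem exists_alt_rep {m : ℕ} (hn : n = 2 * m) :
    ∃ (B : GL (Fin n) F) (P : (Fin n → F) ≃ₗ[F] (Fin m ⊕ Fin m → F)), IsAl B ∧ ∀ x y, sympForm m F (P x) (P y) = fB (B : Matrix (Fin n) (Fin n) F) x y := by
  obtain ⟨B, hB⟩ := exists_B_of_bilin (n := n) (sympBilin m F) (sympBilin_nondegenerate (F := F)).2 (stdE m F hn)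
  refine ⟨B, stdE m F hn, fun x => ?_, fun x y => ?_⟩
  · rw [hB]
    exact sympForm_self _
  · rw [hB]
    rfl

/-! ### Quadratic models -/

/-- The quadratic form of `B`. -/
noncomputable def qB (B : GL (Fin n) F) : QuadraticForm F (Fin n → F) :=
  (bB (B : Matrix (Fin n) (Fin n) F)).toQuadraticMap

theorem qB_apply (B : GL (Fin n) F) (x : Fin n → F) : qB B x = fB (B : Matrix (Fin n) (Fin n) F) x x := by
  rw [qB, LinearMap.BilinMap.toQuadraticMap_apply, bB_apply]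

theorem polar_qB (B : GL (Fin n) F) (x y : Fin n → F) :
    polar (qB B) x y = fB (B : Matrix (Fin n) (Fin n) F) x y + fB (B : Matrix (Fin n) (Fin n) F) y x := by
  rw [qB, LinearMap.BilinMap.polar_toQuadraticMap, bB_apply, bB_apply]

theorem qB_nondeg (h2 : (2 : F) ≠ 0) {B : GL (Fin n) F} (hB : IsSy B) : (polarBilin (qB B)).Nondegenerate := by
  apply nondeg_of_polarNondeg
  intro x hx
  apply fB_left_nondeg B
  intro y
  have h1 := hx y
  rw [polar_qB, hB y x] at h1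
  have h3 : 2 * fB (B : Matrix (Fin n) (Fin n) F) x y = 0 := by linear_combination h1
  exact (mul_eq_zero.mp h3).resolve_left h2

theorem model_even (h2 : (2 : F) ≠ 0) {B : GL (Fin n) F} (hB : IsSy B) {m : ℕ} (hm : 1 ≤ m) (hn : n = 2 * m) :
    (∃ P : (Fin n → F) ≃ₗ[F] (Fin m ⊕ Fin m → F), ∀ x, quadFormPlus m F (P x) = fB (B : Matrix (Fin n) (Fin n) F) x x) ∨
    (∃ ζ : F, (∀ t : F, t ^ 2 + t + ζ ≠ 0) ∧ ∃ P : (Fin n → F) ≃ₗ[F] ((Fin (m - 1) ⊕ Fin (m - 1)) ⊕ Fin 2 → F),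
      ∀ x, quadFormMinus (m - 1) F 1 ζ (P x) = fB (B : Matrix (Fin n) (Fin n) F) x x) := by
  rcases exists_isometry_plus_or_minus hm (by simp [hn]) (qB B) (qB_nondeg h2 hB) with ⟨g, hg⟩ | ⟨ζ, hζ, g, hg⟩
  · exact Or.inl ⟨g, fun x => by rw [← qB_apply, ← hg, plusQ_apply]⟩
  · exact Or.inr ⟨ζ, hζ, g, fun x => by rw [← qB_apply, ← hg, minusQ_apply]⟩

theorem model_odd (h2 : (2 : F) ≠ 0) {B : GL (Fin n) F} (hB : IsSy B) {m : ℕ} (hn : n = 2 * m + 1) :
    ∃ (P : (Fin n → F) ≃ₗ[F] (Unit ⊕ (Fin m ⊕ Fin m) → F)) (c : Fˣ), ∀ x, quadFormOdd m F (P x) = c * fB (B : Matrix (Fin n) (Fin n) F) x x := by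
  let e : (Fin n → F) ≃ₗ[F] (Unit ⊕ (Fin m ⊕ Fin m) → F) := LinearEquiv.ofFinrankEq _ _ (by simp [hn, two_mul]; omega)
  let Q₁ : QuadraticForm F (Unit ⊕ (Fin m ⊕ Fin m) → F) := (qB B).comp (e.symm : (Unit ⊕ (Fin m ⊕ Fin m) → F) →ₗ[F] (Fin n → F))
  have hQ₁ : ∀ v, Q₁ (e v) = fB (B : Matrix (Fin n) (Fin n) F) v v := by
    intro v
    change qB B (e.symm (e v)) = _
    rw [LinearEquiv.symm_apply_apply, qB_apply]
  have hnd : (polarBilin Q₁).Nondegenerate := by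
    apply nondeg_of_polarNondeg
    intro u hu
    have h3 : e.symm u = 0 := by
      apply polarNondeg_of_nondeg _ (qB_nondeg h2 hB)
      intro y
      have h4 := hu (e y)
      have h5 : polar (⇑Q₁) u (e y) = polar (⇑(qB B)) (e.symm u) y := by
        simp only [polar]
        change qB B (e.symm (u + e y)) - qB B (e.symm u) - qB B (e.symm (e y)) = _
        rw [map_add, LinearEquiv.symm_apply_apply]
      rwa [h5] at h4
    simpa using h3
  obtain ⟨g, d, hd, hg⟩ := Cfsg.Agent.Lib.Classical.OrthAut.FldOdd.exists_match m Q₁ hnd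
  refine ⟨e.trans g, Units.mk0 d hd, fun x => ?_⟩
  have h3 := hg (e x)
  rw [hQ₁] at h3
  rw [LinearEquiv.trans_apply, Units.val_mk0, ← h3, Cfsg.Agent.Lib.Classical.Orth.Models.coe_oddForm_apply]

/-- A nondegenerate quadratic model pulled back. -/
theorem exists_B_of_quad (h2 : (2 : F) ≠ 0) {ι : Type} [Fintype ι] [DecidableEq ι] (Q : QuadraticForm F (ι → F))
    (hQ : PolarNondeg Q) (P₀ : (Fin n → F) ≃ₗ[F] (ι → F)) :
    ∃ B : GL (Fin n) F, IsSy B ∧ ∀ x, Q (P₀ x) = fB (B : Matrix (Fin n) (Fin n) F) x x := by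
  have hf : ∀ y, (∀ x, ((2 : F)⁻¹ • polarBilin Q) x y = 0) → y = 0 := by
    intro y hy
    apply hQ
    intro x
    have h1 := hy x
    simp only [LinearMap.smul_apply, polarBilin_apply_apply, smul_eq_mul] at h1
    rw [polar_comm]
    exact (mul_eq_zero.mp h1).resolve_left (inv_ne_zero h2)
  obtain ⟨B, hB⟩ := exists_B_of_bilin ((2 : F)⁻¹ • polarBilin Q) hf P₀
  refine ⟨B, fun x y => ?_, fun x => ?_⟩
  · rw [hB, hB]
    simp only [LinearMap.smul_apply, polarBilin_apply_apply, smul_eq_mul]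
    rw [polar_comm]
  · rw [hB]
    simp only [LinearMap.smul_apply, polarBilin_apply_apply, smul_eq_mul]
    rw [Cfsg.Agent.Lib.Classical.Witt.Hyp.polar_self]
    field_simp

/-! ### Plus and minus -/

/-- A minus form is not similar to a plus form. -/
theorem not_similar_plus_minus {m : ℕ} (hm : 1 ≤ m) {ζ : F} (hζ : ∀ t : F, t ^ 2 + t + ζ ≠ 0)
    (R : (Fin m ⊕ Fin m → F) ≃ₗ[F] ((Fin (m - 1) ⊕ Fin (m - 1)) ⊕ Fin 2 → F)) (c : Fˣ)
    (h : ∀ v, quadFormMinus (m - 1) F 1 ζ (R v) = c * quadFormPlus m F v) : False := by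
  classical
  let W := (Cfsg.Agent.Lib.Classical.Witt.PlusForm.coordSpace m F).map R.toLinearMap
  apply no_ts_minus hm (anisotropic_of_no_root hζ) W
  · rintro _ ⟨v, hv, rfl⟩
    rw [minusQ_apply]
    change quadFormMinus (m - 1) F 1 ζ (R v) = 0
    rw [h]
    have h1 := Cfsg.Agent.Lib.Classical.Witt.PlusForm.isTS_coordSpace m F v hv
    rw [Cfsg.Agent.Lib.Classical.Witt.PlusForm.plusForm_apply] at h1
    rw [h1, mul_zero]
  · have h1 := LinearEquiv.finrank_map_eq R (Cfsg.Agent.Lib.Classical.Witt.PlusForm.coordSpace m F)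
    rw [Cfsg.Agent.Lib.Classical.Witt.PlusForm.finrank_coordSpace] at h1
    exact h1

theorem not_conj_plus_minus (hn : 2 ≤ n) {B B' : GL (Fin n) F} {m : ℕ} (hm : 1 ≤ m) {ζ : F} (hζ : ∀ t : F, t ^ 2 + t + ζ ≠ 0)
    (P : (Fin n → F) ≃ₗ[F] (Fin m ⊕ Fin m → F)) (P' : (Fin n → F) ≃ₗ[F] ((Fin (m - 1) ⊕ Fin (m - 1)) ⊕ Fin 2 → F))
    (h : ∀ x, quadFormPlus m F (P x) = fB (B : Matrix (Fin n) (Fin n) F) x x)
    (h' : ∀ x, quadFormMinus (m - 1) F 1 ζ (P' x) = fB (B' : Matrix (Fin n) (Fin n) F) x x) :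
    ¬ IsConjUnder (inndiagPSL n F) (gaP B⁻¹ : MulAut Pn) (gaP B'⁻¹) := by
  rw [conj_form hn]
  rintro ⟨k, c, hk⟩
  -- `Q'(P' x) = c Q(P k x)`
  let K : (Fin n → F) ≃ₗ[F] (Fin n → F) := Matrix.GeneralLinearGroup.toLin.trans (LinearMap.GeneralLinearGroup.generalLinearEquiv F (Fin n → F)) k
  have hK : ∀ x, K x = (k : Matrix (Fin n) (Fin n) F) *ᵥ x := fun x => rfl
  apply not_similar_plus_minus hm hζ ((P.symm.trans K.symm).trans P') c
  intro v
  simp only [LinearEquiv.trans_apply]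
  rw [h', hk, ← hK, LinearEquiv.apply_symm_apply, ← h, LinearEquiv.apply_symm_apply]

/-- The existence of `ζ`. -/
theorem exists_no_root : ∃ ζ : F, ∀ t : F, t ^ 2 + t + ζ ≠ 0 := by
  classical
  let f : F → F := fun t => t ^ 2 + t
  have hf : ¬ Function.Injective f := by
    intro h
    have h1 : f 0 = f (-1) := by simp [f]
    have h2 := h h1
    have h3 : (1 : F) = 0 := by linear_combination h2
    exact one_ne_zero h3
  have hs : ¬ Function.Surjective f := fun h => hf (Finite.injective_iff_surjective.mpr h)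
  simp only [Function.Surjective, not_forall, not_exists] at hs
  obtain ⟨z, hz⟩ := hs
  refine ⟨-z, fun t ht => hz t ?_⟩
  change t ^ 2 + t = z
  linear_combination ht

end Cfsg.Agent.Lib.Classical.GraphAut.Models
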