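import Mathlib
import Cfsg.Agent.Lib.Classical.GraphAut.Models

/-!
# Involutory graph automorphisms of `PSL_n`: the number of `PSL`-classes
-/

set_option autoImplicit false
set_option linter.unusedSectionVars false
set_option linter.unusedSimpArgs false
set_option linter.unusedVariables false
set_option linter.style.haveILetI false

open scoped Matrix MatrixGroups
open Cfsg
open Cfsg.Agent.Lib.Classical.Herm.SplitAbs Cfsg.Agent.Lib.Classical.Herm.GLDescent
open Cfsg.Agent.Lib.Linalg.AutPSLBasic Cfsg.Agent.Lib.Linalg.AutPSLStd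
open Cfsg.Agent.Lib.Classical.GraphAut.Basic Cfsg.Agent.Lib.Classical.GraphAut.Forms
open Cfsg.Agent.Lib.Classical.GraphAut.Models
open Cfsg.Agent.Lib.Linalg.OrthModels Cfsg.Agent.Lib.Classical.Witt.Index Cfsg.Agent.Lib.Classical.Witt.Hyp
open Cfsg.Agent.Lib.Classical.Symp.Basic
open Module QuadraticMap

namespace Cfsg.Agent.Lib.Classical.GraphAut.Split

variable {F : Type*} [Field F] [Fintype F] {n : ℕ}

local notation "Pn" => Matrix.ProjectiveSpecialLinearGroup (Fin n) F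
local notation "gdet" => Matrix.GeneralLinearGroup.det

theorem det_sq_of_sim {B h : GL (Fin n) F} {a : Fˣ}
    (hs : ∀ x y, fB (B : Matrix (Fin n) (Fin n) F) ((h : Matrix (Fin n) (Fin n) F) *ᵥ x) ((h : Matrix (Fin n) (Fin n) F) *ᵥ y) =
      a * fB (B : Matrix (Fin n) (Fin n) F) x y) :
    (gdet h) ^ 2 = a ^ n := by
  have h1 : (h : Matrix (Fin n) (Fin n) F)ᵀ * (B : Matrix (Fin n) (Fin n) F) * (h : Matrix (Fin n) (Fin n) F) = (a : F) • (B : Matrix (Fin n) (Fin n) F) := by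
    apply fB_ext
    intro x y
    rw [← fB_mulVec, hs, fB_smul_mat]
  have h2 := congrArg Matrix.det h1
  rw [Matrix.det_mul, Matrix.det_mul, Matrix.det_transpose, Matrix.det_smul, Fintype.card_fin] at h2
  have hd : (B : Matrix (Fin n) (Fin n) F).det ≠ 0 := by
    have := Matrix.GeneralLinearGroup.det B
    exact Units.ne_zero (gdet B)
  apply Units.ext
  rw [Units.val_pow_eq_pow_val, Units.val_pow_eq_pow_val, Matrix.GeneralLinearGroup.val_det_apply]
  apply mul_right_cancel₀ hd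
  linear_combination h2

theorem card_units_eq : Nat.card Fˣ = Fintype.card F - 1 := by
  rw [Nat.card_units, Nat.card_eq_fintype_card]

/-- The uniform count. -/
theorem count_uniform (hn : 2 ≤ n) (B : GL (Fin n) F)
    (hW : ∀ (g : GL (Fin n) F) (a : Fˣ), (gdet g) ^ 2 = a ^ n → ∃ μ : Fˣ, gdet g = μ ^ n) :
    splitClassCount (inndiagPSL n F) (Inn Pn) (gaP B⁻¹ : MulAut Pn) = Nat.gcd n (Fintype.card F - 1) := by
  rw [split_count_ga hn _ (powMonoidHom n : Fˣ →* Fˣ).range, IsCyclic.index_powMonoidHom_range, card_units_eq, Nat.gcd_comm]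
  · intro g hg
    obtain ⟨a, ha⟩ := (comm_form hn B g).mp hg
    obtain ⟨μ, hμ⟩ := hW g a (det_sq_of_sim ha)
    exact ⟨μ, by rw [hμ]; rfl⟩
  · rintro _ ⟨μ, rfl⟩
    refine ⟨sG n μ, ?_, ?_⟩
    · rw [conjP_sG, mul_one, one_mul]
    · rw [det_sG]
      rfl

/-- Characteristic two. -/
theorem count_char2 (hn : 2 ≤ n) (h2 : (2 : F) = 0) (B : GL (Fin n) F) :
    splitClassCount (inndiagPSL n F) (Inn Pn) (gaP B⁻¹ : MulAut Pn) = Nat.gcd n (Fintype.card F - 1) := by
  classical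
  apply count_uniform hn
  intro g a h
  have hc : ringChar F = 2 := by
    haveI : CharP F 2 := CharTwo.of_one_ne_zero_of_two_eq_zero one_ne_zero h2
    exact ringChar.eq F 2
  obtain ⟨l, hl⟩ := FiniteField.isSquare_of_char_two hc (a : F)
  have hl0 : l ≠ 0 := by
    rintro rfl
    rw [mul_zero] at hl
    exact a.ne_zero hl
  refine ⟨Units.mk0 l hl0, ?_⟩
  apply Units.ext
  have h3 := congrArg Units.val h
  rw [Units.val_pow_eq_pow_val, Units.val_pow_eq_pow_val, hl] at h3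
  rw [Units.val_pow_eq_pow_val, Units.val_mk0]
  have h3' : ((gdet g : Fˣ) : F) ^ 2 = (l ^ n) ^ 2 := by
    rw [h3, mul_pow, pow_two]
  have h4 : (((gdet g : Fˣ) : F) - l ^ n) ^ 2 = 0 := by
    linear_combination h3' + ((l ^ n) ^ 2 - ((gdet g : Fˣ) : F) * l ^ n) * h2
  have h5 := pow_eq_zero_iff (two_ne_zero) |>.mp h4
  exact sub_eq_zero.mp h5

/-- Odd dimension. -/
theorem count_odd (hn : 2 ≤ n) (hodd : Odd n) (B : GL (Fin n) F) :
    splitClassCount (inndiagPSL n F) (Inn Pn) (gaP B⁻¹ : MulAut Pn) = Nat.gcd n (Fintype.card F - 1) := by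
  classical
  apply count_uniform hn
  intro g a h
  obtain ⟨t, rfl⟩ := hodd
  obtain ⟨d, hd⟩ : ∃ d, d = gdet g := ⟨_, rfl⟩
  rw [← hd] at h ⊢
  let l : Fˣ := d * (a ^ t)⁻¹
  have hl : l ^ 2 = a := by
    calc l ^ 2 = d ^ 2 * ((a ^ t) ^ 2)⁻¹ := by
          simp only [l]
          rw [mul_pow, inv_pow]
      _ = a ^ (2 * t + 1) * ((a ^ t) ^ 2)⁻¹ := by rw [h]
      _ = a := by
          rw [pow_succ, pow_mul', mul_inv_cancel_comm]
  have h3 : (l ^ (2 * t + 1)) ^ 2 = d ^ 2 := by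
    rw [h, ← pow_mul, mul_comm, pow_mul, hl]
  have h4 : (d : F) * (d : F) = ((l ^ (2 * t + 1) : Fˣ) : F) * ((l ^ (2 * t + 1) : Fˣ) : F) := by
    have := congrArg Units.val h3
    rw [Units.val_pow_eq_pow_val, Units.val_pow_eq_pow_val, pow_two, pow_two] at this
    exact this.symm
  rcases mul_self_eq_mul_self_iff.mp h4 with h5 | h5
  · exact ⟨l, Units.ext h5⟩
  · refine ⟨-l, Units.ext ?_⟩
    rw [Odd.neg_pow ⟨t, rfl⟩, Units.val_neg, h5]


/-! ### Alternating forms -/

section Alt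

variable {ι κ : Type} [Fintype ι] [DecidableEq ι] [Fintype κ] [DecidableEq κ]

theorem det_cbG (P : (κ → F) ≃ₗ[F] (ι → F)) (h : GL ι F) :
    ((cbG P h : GL κ F) : Matrix κ κ F).det = (h : Matrix ι ι F).det := by
  rw [← LinearMap.det_toLin', ← LinearMap.det_toLin' (h : Matrix ι ι F), ← LinearMap.det_conj (Matrix.toLin' (h : Matrix ι ι F)) P.symm]
  congr 1
  apply LinearMap.ext
  intro x
  rw [Matrix.toLin'_apply, mulVec_cbG]
  rfl

end Alt

/-- The diagonal similarity of `J`. -/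
noncomputable def dJ (m : ℕ) (a : Fˣ) : GL (Fin m ⊕ Fin m) F :=
  ⟨Matrix.diagonal (Sum.elim (fun _ => 1) (fun _ => (a : F))), Matrix.diagonal (Sum.elim (fun _ => 1) (fun _ => ((a⁻¹ : Fˣ) : F))),
    by
      rw [Matrix.diagonal_mul_diagonal, ← Matrix.diagonal_one]
      congr 1
      funext i
      rcases i with i | i <;> simp,
    by
      rw [Matrix.diagonal_mul_diagonal, ← Matrix.diagonal_one]
      congr 1
      funext i
      rcases i with i | i <;> simp⟩

theorem coe_dJ (m : ℕ) (a : Fˣ) : ((dJ m a : GL (Fin m ⊕ Fin m) F) : Matrix (Fin m ⊕ Fin m) (Fin m ⊕ Fin m) F) =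
    Matrix.diagonal (Sum.elim (fun _ => 1) (fun _ => (a : F))) := rfl

theorem sympForm_dJ (m : ℕ) (a : Fˣ) (u v : Fin m ⊕ Fin m → F) :
    sympForm m F ((dJ m a : Matrix (Fin m ⊕ Fin m) (Fin m ⊕ Fin m) F) *ᵥ u) ((dJ m a : Matrix (Fin m ⊕ Fin m) (Fin m ⊕ Fin m) F) *ᵥ v) = a * sympForm m F u v := by
  rw [sympForm_apply, sympForm_apply, Finset.mul_sum]
  refine Finset.sum_congr rfl fun i _ => ?_
  rw [coe_dJ]
  simp only [Matrix.mulVec_diagonal, Sum.elim_inl, Sum.elim_inr]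
  ring

theorem det_dJ (m : ℕ) (a : Fˣ) : gdet (dJ m a) = a ^ m := by
  apply Units.ext
  rw [Matrix.GeneralLinearGroup.val_det_apply, coe_dJ, Matrix.det_diagonal, Fintype.prod_sum_type]
  simp

/-- The number of classes, alternating forms. -/
theorem count_alt (hn : 2 ≤ n) {B : GL (Fin n) F} (hB : IsAl B) {m : ℕ} (hnm : n = 2 * m) :
    splitClassCount (inndiagPSL n F) (Inn Pn) (gaP B⁻¹ : MulAut Pn) = Nat.gcd m (Fintype.card F - 1) := by
  classical
  obtain ⟨P, hP⟩ := alt_model hB hnm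
  rw [split_count_ga hn _ (powMonoidHom m : Fˣ →* Fˣ).range, IsCyclic.index_powMonoidHom_range, card_units_eq, Nat.gcd_comm]
  · intro g hg
    obtain ⟨a, ha⟩ := (comm_form hn B g).mp hg
    obtain ⟨g', hg'⟩ : ∃ g', g' = cbG P.symm g := ⟨_, rfl⟩
    have h1 : ∀ u v, sympForm m F ((g' : Matrix (Fin m ⊕ Fin m) (Fin m ⊕ Fin m) F) *ᵥ u) ((g' : Matrix (Fin m ⊕ Fin m) (Fin m ⊕ Fin m) F) *ᵥ v) = a * sympForm m F u v := by
      intro u v
      rw [hg', mulVec_cbG, mulVec_cbG, LinearEquiv.symm_symm, hP, ha]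
      rw [← hP, LinearEquiv.apply_symm_apply, LinearEquiv.apply_symm_apply]
    have h2 : ((g' * (dJ m a)⁻¹ : GL (Fin m ⊕ Fin m) F) : Matrix (Fin m ⊕ Fin m) (Fin m ⊕ Fin m) F) ∈ Matrix.symplecticGroup (Fin m) F := by
      rw [mem_symplecticGroup_iff_forall]
      intro u v
      rw [Units.val_mul, ← Matrix.mulVec_mulVec, ← Matrix.mulVec_mulVec, h1]
      have h3 := sympForm_dJ m a (((dJ m a)⁻¹ : GL (Fin m ⊕ Fin m) F) *ᵥ u) (((dJ m a)⁻¹ : GL (Fin m ⊕ Fin m) F) *ᵥ v)
      rw [← h3, Matrix.mulVec_mulVec, Matrix.mulVec_mulVec, ← Units.val_mul, mul_inv_cancel, Units.val_one,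
        Matrix.one_mulVec, Matrix.one_mulVec]
    have h3 := SymplecticGroup.det_eq_one h2
    refine ⟨a, ?_⟩
    apply Units.ext
    rw [powMonoidHom_apply, ← det_dJ m a]
    rw [Matrix.GeneralLinearGroup.val_det_apply, Matrix.GeneralLinearGroup.val_det_apply, ← det_cbG P.symm g, ← hg']
    rw [Units.val_mul, Matrix.det_mul] at h3
    have h4 : ((dJ m a : GL (Fin m ⊕ Fin m) F) : Matrix (Fin m ⊕ Fin m) (Fin m ⊕ Fin m) F).det *
        (((dJ m a)⁻¹ : GL (Fin m ⊕ Fin m) F) : Matrix (Fin m ⊕ Fin m) (Fin m ⊕ Fin m) F).det = 1 := by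
      rw [← Matrix.det_mul, ← Units.val_mul, mul_inv_cancel, Units.val_one, Matrix.det_one]
    symm
    calc (g' : Matrix (Fin m ⊕ Fin m) (Fin m ⊕ Fin m) F).det
        = (g' : Matrix (Fin m ⊕ Fin m) (Fin m ⊕ Fin m) F).det * ((dJ m a : GL (Fin m ⊕ Fin m) F) : Matrix (Fin m ⊕ Fin m) (Fin m ⊕ Fin m) F).det *
        (((dJ m a)⁻¹ : GL (Fin m ⊕ Fin m) F) : Matrix (Fin m ⊕ Fin m) (Fin m ⊕ Fin m) F).det := by rw [mul_assoc, h4, mul_one]
      _ = _ := by
        rw [mul_right_comm, h3, one_mul]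
  · rintro _ ⟨a, rfl⟩
    refine ⟨cbG P (dJ m a), ?_, ?_⟩
    · rw [comm_form hn]
      refine ⟨a, fun x y => ?_⟩
      rw [← hP, ← hP, mulVec_cbG, mulVec_cbG, LinearEquiv.apply_symm_apply, LinearEquiv.apply_symm_apply, sympForm_dJ]
    · apply Units.ext
      rw [Matrix.GeneralLinearGroup.val_det_apply, det_cbG, ← Matrix.GeneralLinearGroup.val_det_apply, det_dJ]
      rfl

/-! ### Symmetric forms -/

/-- All the anisotropic parts are isometric, in odd characteristic. -/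
theorem minus_iso (h2 : (2 : F) ≠ 0) (m : ℕ) {ζ ζ' : F} (hζ : ∀ t : F, t ^ 2 + t + ζ ≠ 0) (hζ' : ∀ t : F, t ^ 2 + t + ζ' ≠ 0) :
    ∃ R : ((Fin m ⊕ Fin m) ⊕ Fin 2 → F) ≃ₗ[F] ((Fin m ⊕ Fin m) ⊕ Fin 2 → F),
      ∀ v, quadFormMinus m F 1 ζ (R v) = quadFormMinus m F 1 ζ' v := by
  classical
  have hc : ringChar F ≠ 2 := by
    intro h
    apply h2
    have := ringChar.spec F 2
    simpa [h] using (ringChar.spec F 2).mpr (by rw [h])
  have hd := Cfsg.Agent.Lib.Classical.Witt.Disc.not_isSquare_disc h2 (anisotropic_of_no_root hζ)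
  have hd' := Cfsg.Agent.Lib.Classical.Witt.Disc.not_isSquare_disc h2 (anisotropic_of_no_root hζ')
  obtain ⟨d, hdd⟩ : ∃ d, d = (1 : F) ^ 2 - 4 * ζ := ⟨_, rfl⟩
  obtain ⟨d', hdd'⟩ : ∃ d', d' = (1 : F) ^ 2 - 4 * ζ' := ⟨_, rfl⟩
  rw [← hdd] at hd
  rw [← hdd'] at hd'
  have hd0 : d ≠ 0 := by
    rintro rfl
    exact hd IsSquare.zero
  have hd0' : d' ≠ 0 := by
    rintro rfl
    exact hd' IsSquare.zero
  have h3 := Cfsg.Agent.Lib.Classical.Witt.Disc.isSquare_mul_nonsquare_iff hc (x := d' / d) (y := d) (div_ne_zero hd0' hd0) hd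
  rw [div_mul_cancel₀ _ hd0] at h3
  have h4 : IsSquare (d' / d) := by
    by_contra h5
    exact hd' (h3.mpr h5)
  obtain ⟨s, hs⟩ := h4
  have hs0 : s ≠ 0 := by
    rintro rfl
    rw [mul_zero] at hs
    exact (div_ne_zero hd0' hd0) hs
  have hs2 : s * s * d = d' := by
    rw [← hs]
    field_simp
  let T : ((Fin m ⊕ Fin m) ⊕ Fin 2 → F) →ₗ[F] ((Fin m ⊕ Fin m) ⊕ Fin 2 → F) :=
    { toFun := fun v => Sum.elim (fun j => v (.inl j)) ![v (.inr 0) + (1 - s) / 2 * v (.inr 1), s * v (.inr 1)]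
      map_add' := by
        intro x y
        funext j
        rcases j with j | k
        · rfl
        · fin_cases k
          · simp only [Pi.add_apply, Sum.elim_inr]
            simp
            ring
          · simp only [Pi.add_apply, Sum.elim_inr]
            simp
            ring
      map_smul' := by
        intro c x
        funext j
        rcases j with j | k
        · rfl
        · fin_cases k
          · simp only [Pi.smul_apply, Sum.elim_inr, RingHom.id_apply]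
            simp
            ring
          · simp only [Pi.smul_apply, Sum.elim_inr, RingHom.id_apply]
            simp
            ring }
  have hT : ∀ v j, T v (.inl j) = v (.inl j) := fun v j => rfl
  have hT0 : ∀ v, T v (.inr 0) = v (.inr 0) + (1 - s) / 2 * v (.inr 1) := fun v => rfl
  have hT1 : ∀ v, T v (.inr 1) = s * v (.inr 1) := fun v => rfl
  have hinj : Function.Injective T := by
    rw [injective_iff_map_eq_zero]
    intro v hv
    funext j
    rcases j with j | k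
    · have := congrFun hv (.inl j)
      rwa [hT] at this
    · have h1 : v (.inr 1) = 0 := by
        have := congrFun hv (.inr 1)
        rw [hT1] at this
        exact (mul_eq_zero.mp this).resolve_left hs0
      fin_cases k
      · have := congrFun hv (.inr 0)
        rw [hT0, h1, mul_zero, add_zero] at this
        exact this
      · exact h1
  refine ⟨LinearEquiv.ofInjectiveEndo T hinj, fun v => ?_⟩
  rw [LinearEquiv.coe_ofInjectiveEndo]
  simp only [quadFormMinus, hT, hT0, hT1]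
  have h5 : (4 : F) * ζ' = 1 - s * s * (1 - 4 * ζ) := by
    rw [hdd] at hs2
    rw [hdd'] at hs2
    linear_combination hs2
  have h6 : (2 : F) * 2 = 4 := by norm_num
  congr 1
  have hz : ζ' = (1 - s * s * (1 - 4 * ζ)) / 4 := by
    have h7 : (4 : F) ≠ 0 := by
      rw [← h6]
      exact mul_ne_zero h2 h2
    rw [eq_div_iff h7]
    linear_combination h5
  rw [hz]
  have h7 : (4 : F) ≠ 0 := by
    rw [← h6]
    exact mul_ne_zero h2 h2
  field_simp
  ring

/-- Polarisation for similarities. -/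
theorem sim_of_diag (h2 : (2 : F) ≠ 0) {B : GL (Fin n) F} (hB : IsSy B) (k : GL (Fin n) F) (a : F)
    (h : ∀ x, fB (B : Matrix (Fin n) (Fin n) F) ((k : Matrix (Fin n) (Fin n) F) *ᵥ x) ((k : Matrix (Fin n) (Fin n) F) *ᵥ x) = a * fB (B : Matrix (Fin n) (Fin n) F) x x) (x y : Fin n → F) :
    fB (B : Matrix (Fin n) (Fin n) F) ((k : Matrix (Fin n) (Fin n) F) *ᵥ x) ((k : Matrix (Fin n) (Fin n) F) *ᵥ y) = a * fB (B : Matrix (Fin n) (Fin n) F) x y := by
  have h5 := polarize_sym h2 (A := (k : Matrix (Fin n) (Fin n) F)ᵀ * (B : Matrix (Fin n) (Fin n) F) * (k : Matrix (Fin n) (Fin n) F)) (C := a • (B : Matrix (Fin n) (Fin n) F))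
    (by
      intro x y
      rw [← fB_mulVec, ← fB_mulVec]
      exact hB _ _)
    (by
      intro x y
      rw [fB_smul_mat, fB_smul_mat, hB x y])
    (by
      intro x
      rw [← fB_mulVec, h, fB_smul_mat]) x y
  rw [← fB_mulVec, fB_smul_mat] at h5
  exact h5

/-- Similarities with any factor exist, in even dimension. -/
theorem exists_sim (h2 : (2 : F) ≠ 0) {B : GL (Fin n) F} (hB : IsSy B) {m : ℕ} (hm : 1 ≤ m) (hnm : n = 2 * m) (a : Fˣ) :
    ∃ k : GL (Fin n) F, ∀ x y, fB (B : Matrix (Fin n) (Fin n) F) ((k : Matrix (Fin n) (Fin n) F) *ᵥ x) ((k : Matrix (Fin n) (Fin n) F) *ᵥ y) = a * fB (B : Matrix (Fin n) (Fin n) F) x y := by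
  have ha : ∀ x y, fB ((sG n a * B : GL (Fin n) F) : Matrix (Fin n) (Fin n) F) x y = a * fB (B : Matrix (Fin n) (Fin n) F) x y := by
    intro x y
    rw [coe_sG_mul_apply, fB_smul_mat]
  have hB' : IsSy (sG n a * B) := by
    intro x y
    rw [ha, ha, hB x y]
  rcases model_even h2 hB hm hnm with ⟨P, hP⟩ | ⟨ζ, hζ, P, hP⟩ <;>
    rcases model_even h2 hB' hm hnm with ⟨P', hP'⟩ | ⟨ζ', hζ', P', hP'⟩
  · refine ⟨ofE (P'.trans P.symm), sim_of_diag h2 hB _ _ fun x => ?_⟩
    rw [mulVec_ofE, ← hP, LinearEquiv.trans_apply, LinearEquiv.apply_symm_apply, hP', ha]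
  · exfalso
    apply not_similar_plus_minus hm hζ' (P.symm.trans P') a
    intro v
    rw [LinearEquiv.trans_apply, hP', ha, ← hP, LinearEquiv.apply_symm_apply]
  · exfalso
    apply not_similar_plus_minus hm hζ (P'.symm.trans P) a⁻¹
    intro v
    rw [LinearEquiv.trans_apply, hP]
    have h3 := hP' (P'.symm v)
    rw [LinearEquiv.apply_symm_apply, ha] at h3
    rw [h3, ← mul_assoc, Units.val_inv_eq_inv_val, inv_mul_cancel₀ a.ne_zero, one_mul]
  · obtain ⟨R, hR⟩ := minus_iso h2 (m - 1) hζ hζ'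
    refine ⟨ofE ((P'.trans R).trans P.symm), sim_of_diag h2 hB _ _ fun x => ?_⟩
    rw [mulVec_ofE, ← hP, LinearEquiv.trans_apply, LinearEquiv.apply_symm_apply, LinearEquiv.trans_apply, hR, hP', ha]


/-- A reflection of determinant `-1`. -/
theorem exists_refl {B : GL (Fin n) F} (hB : IsSy B) (hA : ¬ IsAl B) :
    ∃ r : GL (Fin n) F, (∀ x y, fB (B : Matrix (Fin n) (Fin n) F) ((r : Matrix (Fin n) (Fin n) F) *ᵥ x) ((r : Matrix (Fin n) (Fin n) F) *ᵥ y) = fB (B : Matrix (Fin n) (Fin n) F) x y) ∧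
      gdet r = -1 := by
  classical
  simp only [IsAl, not_forall] at hA
  obtain ⟨v, hv⟩ := hA
  obtain ⟨c, hc⟩ : ∃ c, c = fB (B : Matrix (Fin n) (Fin n) F) v v := ⟨_, rfl⟩
  rw [← hc] at hv
  let u : Fin n → F := (-(2 / c)) • v
  let w : Fin n → F := v ᵥ* (B : Matrix (Fin n) (Fin n) F)
  have hw : ∀ x, w ⬝ᵥ x = fB (B : Matrix (Fin n) (Fin n) F) v x := fun x => (Matrix.dotProduct_mulVec _ _ _).symm
  let M : Matrix (Fin n) (Fin n) F := 1 + Matrix.replicateCol Unit u * Matrix.replicateRow Unit w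
  have hdet : M.det = -1 := by
    rw [Matrix.det_one_add_replicateCol_mul_replicateRow, hw, fB_smul_right, ← hc]
    field_simp
    ring
  have hd0 : M.det ≠ 0 := by
    rw [hdet]
    exact neg_ne_zero.mpr one_ne_zero
  have hM : ∀ x, M *ᵥ x = x + (-(2 / c) * fB (B : Matrix (Fin n) (Fin n) F) v x) • v := by
    intro x
    rw [Matrix.add_mulVec, Matrix.one_mulVec, ← Matrix.mulVec_mulVec]
    congr 1
    funext i
    simp [Matrix.mulVec, dotProduct, u, Matrix.replicateRow, Matrix.replicateCol, hw]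
    have := hw x
    simp only [dotProduct] at this
    rw [this]
    ring
  let r : GL (Fin n) F := Matrix.GeneralLinearGroup.mkOfDetNeZero M hd0
  have hr : (r : Matrix (Fin n) (Fin n) F) = M := rfl
  refine ⟨r, fun x y => ?_, ?_⟩
  · rw [hr, hM, hM, fB_add_left, fB_add_right, fB_add_right, fB_smul_left, fB_smul_right, fB_smul_left, fB_smul_right,
      ← hc, hB x v]
    field_simp
    ring
  · apply Units.ext
    rw [Matrix.GeneralLinearGroup.val_det_apply, hr, hdet]
    simp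

theorem not_alt_of_sym (h2 : (2 : F) ≠ 0) (hn : 1 ≤ n) {B : GL (Fin n) F} (hB : IsSy B) : ¬ IsAl B := by
  intro hA
  haveI : NeZero n := ⟨by omega⟩
  have hy : (fun _ => 1 : Fin n → F) = 0 := by
    apply fB_right_nondeg B
    intro x
    have h1 := skew_of_alt hA x (fun _ => 1)
    rw [hB _ x] at h1
    have h3 : 2 * fB (B : Matrix (Fin n) (Fin n) F) x (fun _ => 1) = 0 := by linear_combination h1
    exact (mul_eq_zero.mp h3).resolve_left h2
  have := congrFun hy ⟨0, by omega⟩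
  exact one_ne_zero this

theorem card_odd_of (h2 : (2 : F) ≠ 0) : Odd (Fintype.card F) := by
  classical
  obtain ⟨p, hp⟩ := CharP.exists F
  obtain ⟨k, hpp, hcard⟩ := FiniteField.card F p
  have hp2 : p ≠ 2 := by
    rintro rfl
    apply h2
    exact_mod_cast CharP.cast_eq_zero F 2
  rw [hcard]
  exact (hpp.odd_of_ne_two hp2).pow

/-- `-1` is the `(q-1)/2`-th power of a generator. -/
theorem neg_one_mem_Pw (h2 : (2 : F) ≠ 0) : (-1 : Fˣ) ∈ Pw Fˣ ((Fintype.card F - 1) / 2) := by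
  classical
  obtain ⟨t, ht⟩ := card_odd_of h2
  have hc : Nat.card Fˣ = 2 * t := by
    rw [card_units_eq, ht]
    omega
  have hq : (Fintype.card F - 1) / 2 = t := by omega
  rw [hq]
  obtain ⟨ω, hω⟩ := IsCyclic.exists_generator (α := Fˣ)
  have hord : orderOf ω = 2 * t := by
    rw [← hc]
    exact orderOf_eq_card_of_forall_mem_zpowers hω
  refine ⟨ω, ?_⟩
  rw [powMonoidHom_apply]
  have h3 : ((ω ^ t : Fˣ) : F) * ((ω ^ t : Fˣ) : F) = 1 := by
    rw [← Units.val_mul, ← pow_add, ← two_mul, ← hord, pow_orderOf_eq_one]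
    rfl
  rcases mul_self_eq_one_iff.mp h3 with h4 | h4
  · exfalso
    have h5 : ω ^ t = 1 := Units.ext h4
    have h6 := orderOf_dvd_of_pow_eq_one h5
    rw [hord] at h6
    have htp : 0 < t := by
      have : 2 ≤ Fintype.card F := Fintype.one_lt_card
      have : 3 ≤ Fintype.card F := by
        by_contra hlt
        have h7 : Fintype.card F = 2 := by omega
        omega
      omega
    have := Nat.le_of_dvd htp h6
    omega
  · exact Units.ext (by rw [h4]; simp)

/-- The number of classes, symmetric forms in even dimension. -/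
theorem count_sym (h2 : (2 : F) ≠ 0) {B : GL (Fin n) F} (hB : IsSy B) {m : ℕ} (hm : 1 ≤ m) (hnm : n = 2 * m) :
    splitClassCount (inndiagPSL n F) (Inn Pn) (gaP B⁻¹ : MulAut Pn) = Nat.gcd n (Fintype.card F - 1) / 2 := by
  classical
  have hn : 2 ≤ n := by omega
  obtain ⟨t, ht⟩ := card_odd_of h2
  have hc : Nat.card Fˣ = 2 * t := by
    rw [card_units_eq, ht]
    omega
  have hq : (Fintype.card F - 1) / 2 = t := by omega
  have hq' : Fintype.card F - 1 = 2 * t := by omega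
  have hneg := neg_one_mem_Pw h2
  rw [hq] at hneg
  have hsq : ∀ y ∈ Pw Fˣ t, y = 1 ∨ y = -1 := by
    rintro _ ⟨z, rfl⟩
    rw [powMonoidHom_apply]
    have h3 : ((z ^ t : Fˣ) : F) * ((z ^ t : Fˣ) : F) = 1 := by
      rw [← Units.val_mul, ← pow_add, ← two_mul, ← hc, pow_card_eq_one']
      rfl
    rcases mul_self_eq_one_iff.mp h3 with h4 | h4
    · exact Or.inl (Units.ext h4)
    · exact Or.inr (Units.ext (by rw [h4]; simp))
  have hpm : ∀ {d a : Fˣ}, d ^ 2 = a ^ n → d = a ^ m ∨ d = - a ^ m := by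
    intro d a h
    have h3 : (d : F) * d = ((a ^ m : Fˣ) : F) * ((a ^ m : Fˣ) : F) := by
      have := congrArg Units.val h
      rw [hnm, pow_mul', Units.val_pow_eq_pow_val, Units.val_pow_eq_pow_val, pow_two, pow_two] at this
      exact this
    rcases mul_self_eq_mul_self_iff.mp h3 with h4 | h4
    · exact Or.inl (Units.ext h4)
    · exact Or.inr (Units.ext (by rw [h4]; simp))
  have hgcd : Nat.gcd n (Fintype.card F - 1) / 2 = Nat.gcd t m := by
    rw [hnm, hq', Nat.gcd_mul_left, Nat.mul_div_cancel_left _ (by norm_num), Nat.gcd_comm]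
  have hA : t ∣ Nat.card Fˣ := ⟨2, by rw [hc]; ring⟩
  rw [hgcd, ← index_Pw_sup (G := Fˣ) t m hA]
  obtain ⟨r, hr1, hr2⟩ := exists_refl hB (not_alt_of_sym h2 (by omega) hB)
  have hrc : (gaP B⁻¹ * conjP r : MulAut Pn) = conjP r * gaP B⁻¹ := by
    rw [comm_form hn]
    exact ⟨1, fun x y => by rw [hr1, Units.val_one, one_mul]⟩
  apply split_count_ga hn
  · intro g hg
    obtain ⟨a, ha⟩ := (comm_form hn B g).mp hg
    rcases hpm (det_sq_of_sim ha) with h3 | h3
    · rw [h3]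
      exact Subgroup.mem_sup_right ⟨a, rfl⟩
    · rw [h3, ← neg_one_mul]
      exact Subgroup.mul_mem _ (Subgroup.mem_sup_left hneg) (Subgroup.mem_sup_right ⟨a, rfl⟩)
  · intro w hw
    obtain ⟨y, hy, z, ⟨a, rfl⟩, rfl⟩ := Subgroup.mem_sup.mp hw
    obtain ⟨k, hk⟩ := exists_sim h2 hB hm hnm a
    have hkc : (gaP B⁻¹ * conjP k : MulAut Pn) = conjP k * gaP B⁻¹ := (comm_form hn B k).mpr ⟨a, hk⟩
    have hkrc : (gaP B⁻¹ * conjP (k * r) : MulAut Pn) = conjP (k * r) * gaP B⁻¹ := by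
      rw [conjP_mul, ← mul_assoc, hkc, mul_assoc, hrc, mul_assoc]
    have hdr : gdet (k * r) = - gdet k := by
      rw [map_mul, hr2]
      simp
    rw [powMonoidHom_apply]
    rcases hsq y hy with rfl | rfl <;> rcases hpm (det_sq_of_sim hk) with h3 | h3
    · exact ⟨k, hkc, by rw [h3, one_mul]⟩
    · exact ⟨k * r, hkrc, by rw [hdr, h3, one_mul, neg_neg]⟩
    · exact ⟨k * r, hkrc, by rw [hdr, h3, neg_one_mul]⟩
    · exact ⟨k, hkc, by rw [h3, neg_one_mul]⟩

end Cfsg.Agent.Lib.Classical.GraphAut.Split
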