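import Mathlib
import Cfsg.Agent.Lib.Classical.GraphAut.Split

/-!
# Involutory graph automorphisms of `PSL_n`: discriminants and the inverse transpose
-/

set_option autoImplicit false
set_option linter.unusedSectionVars false
set_option linter.unusedSimpArgs false
set_option linter.unusedVariables false
set_option linter.style.haveILetI false

open scoped Matrix MatrixGroups
open Cfsg
open Cfsg.Agent.Lib.Classical.Herm.GLDescent
open Cfsg.Agent.Lib.Linalg.AutPSLBasic Cfsg.Agent.Lib.Linalg.AutPSLStd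
open Cfsg.Agent.Lib.Classical.GraphAut.Basic Cfsg.Agent.Lib.Classical.GraphAut.Forms
open Cfsg.Agent.Lib.Classical.GraphAut.Models Cfsg.Agent.Lib.Classical.GraphAut.Split
open Cfsg.Agent.Lib.Linalg.OrthModels Cfsg.Agent.Lib.Classical.Witt.Index Cfsg.Agent.Lib.Classical.Witt.Hyp
open Cfsg.Agent.Lib.Classical.Witt.Disc
open Cfsg.Agent.Lib.Classical.Symp.Basic
open Module QuadraticMap

namespace Cfsg.Agent.Lib.Classical.GraphAut.Disc

variable {F : Type*} [Field F] [Fintype F] {n : ℕ}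

local notation "Pn" => Matrix.ProjectiveSpecialLinearGroup (Fin n) F

/-- The polar form of a model. -/
theorem polar_model {B : GL (Fin n) F} (hB : IsSy B) {ι : Type} (Q : (ι → F) → F) (P : (Fin n → F) ≃ₗ[F] (ι → F))
    (hP : ∀ x, Q (P x) = fB (B : Matrix (Fin n) (Fin n) F) x x) (x y : Fin n → F) :
    polar Q (P x) (P y) = 2 * fB (B : Matrix (Fin n) (Fin n) F) x y := by
  rw [polar, ← map_add, hP, hP, hP, fB_add_left, fB_add_right, fB_add_right, hB y x]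
  ring

theorem det_model {B : GL (Fin n) F} (hB : IsSy B) {ι : Type} (Q : (ι → F) → F) (P : (Fin n → F) ≃ₗ[F] (ι → F))
    (hP : ∀ x, Q (P x) = fB (B : Matrix (Fin n) (Fin n) F) x x) :
    (Matrix.of fun i j => polar Q (((Pi.basisFun F (Fin n)).map P) i) (((Pi.basisFun F (Fin n)).map P) j)).det =
      2 ^ n * (B : Matrix (Fin n) (Fin n) F).det := by
  have h1 : (Matrix.of fun i j => polar Q (((Pi.basisFun F (Fin n)).map P) i) (((Pi.basisFun F (Fin n)).map P) j)) =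
      (2 : F) • (B : Matrix (Fin n) (Fin n) F) := by
    ext i j
    simp only [Module.Basis.map_apply, Matrix.of_apply, Matrix.smul_apply, smul_eq_mul]
    rw [polar_model hB Q P hP]
    simp [fB, Matrix.mulVec_single, dotProduct, Pi.single_apply]
  rw [h1, Matrix.det_smul, Fintype.card_fin]

theorem isSquare_two_pow (m : ℕ) : IsSquare ((2 : F) ^ (2 * m)) := by
  rw [pow_mul']
  exact IsSquare.sq _

/-- Plus type: discriminant. -/
theorem disc_plus {B : GL (Fin n) F} (hB : IsSy B) (h2 : (2 : F) ≠ 0) {m : ℕ} (hnm : n = 2 * m)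
    (P : (Fin n → F) ≃ₗ[F] (Fin m ⊕ Fin m → F)) (hP : ∀ x, quadFormPlus m F (P x) = fB (B : Matrix (Fin n) (Fin n) F) x x) :
    IsSquare (B : Matrix (Fin n) (Fin n) F).det ↔ IsSquare ((-1 : F) ^ m) := by
  have h1 := isSquare_det_plus_iff m ((Pi.basisFun F (Fin n)).map P)
  rw [det_model hB _ P hP] at h1
  rw [← h1]
  subst hnm
  have h3 : (2 : F) ^ (2 * m) = (2 ^ m) ^ 2 := by rw [pow_mul']
  rw [h3, isSquare_sq_mul_iff (pow_ne_zero _ h2)]

/-- Minus type: discriminant. -/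
theorem disc_minus {B : GL (Fin n) F} (hB : IsSy B) (h2 : (2 : F) ≠ 0) {m : ℕ} (hm : 1 ≤ m) (hnm : n = 2 * m) {ζ : F}
    (hζ : ∀ t : F, t ^ 2 + t + ζ ≠ 0)
    (P : (Fin n → F) ≃ₗ[F] ((Fin (m - 1) ⊕ Fin (m - 1)) ⊕ Fin 2 → F))
    (hP : ∀ x, quadFormMinus (m - 1) F 1 ζ (P x) = fB (B : Matrix (Fin n) (Fin n) F) x x) :
    IsSquare (B : Matrix (Fin n) (Fin n) F).det ↔ ¬ IsSquare ((-1 : F) ^ m) := by
  classical
  have h1 := isSquare_det_minus_iff (m - 1) 1 ζ ((Pi.basisFun F (Fin n)).map P)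
  rw [det_model hB _ P hP] at h1
  have hc : ringChar F ≠ 2 := by
    intro h
    apply h2
    simpa [h] using (ringChar.spec F 2).mpr (by rw [h])
  have hd := not_isSquare_disc h2 (anisotropic_of_no_root hζ)
  have hx : ((-1 : F) ^ m) ≠ 0 := pow_ne_zero _ (neg_ne_zero.mpr one_ne_zero)
  rw [← isSquare_mul_nonsquare_iff hc hx hd]
  have h4 : (-1 : F) ^ (m - 1) * (4 * ζ - 1 ^ 2) = (-1 : F) ^ m * (1 ^ 2 - 4 * ζ) := by
    obtain ⟨k, rfl⟩ : ∃ k, m = k + 1 := ⟨m - 1, by omega⟩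
    simp only [Nat.add_sub_cancel]
    rw [pow_succ]
    ring
  rw [← h4, ← h1]
  subst hnm
  have h3 : (2 : F) ^ (2 * m) = (2 ^ m) ^ 2 := by rw [pow_mul']
  rw [h3, isSquare_sq_mul_iff (pow_ne_zero _ h2)]

theorem isSy_one : IsSy (1 : GL (Fin n) F) := by
  intro x y
  simp only [fB, Units.val_one, Matrix.one_mulVec]
  exact dotProduct_comm _ _

theorem itP_eq_gaP : (itP : MulAut Pn) = gaP (1 : GL (Fin n) F)⁻¹ := by
  rw [inv_one, gaP, conjP_one, one_mul]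

/-- The inverse transpose automorphism. -/
theorem it_main (hodd : Odd (Fintype.card F)) {m : ℕ} (hm : 2 ≤ m) (hnm : n = 2 * m) (ι : MulAut Pn) (hι : IsInverseTransposeAutPSL ι) :
    (Even (n * (Fintype.card F - 1) / 4) → Nonempty (↥(inndiagPSL n F ⊓ Subgroup.centralizer {ι}) ≃* PGO F (quadFormPlus m F))) ∧
    (¬ Even (n * (Fintype.card F - 1) / 4) → ∃ a b : F, (∀ z₁ z₂ : F, z₁ ^ 2 + a * z₁ * z₂ + b * z₂ ^ 2 = 0 → z₁ = 0 ∧ z₂ = 0) ∧
      Nonempty (↥(inndiagPSL n F ⊓ Subgroup.centralizer {ι}) ≃* PGO F (quadFormMinus (m - 1) F a b))) := by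
  classical
  have h2 : (2 : F) ≠ 0 := by
    intro h
    obtain ⟨k, hk⟩ := hodd
    have h3 : ringChar F = 2 := by
      haveI : CharP F 2 := CharTwo.of_one_ne_zero_of_two_eq_zero one_ne_zero h
      exact ringChar.eq F 2
    rw [FiniteField.even_card_iff_char_two] at h3
    omega
  have hn : 2 ≤ n := by omega
  rw [isIT_eq ι hι, itP_eq_gaP]
  have hdet : IsSquare ((1 : GL (Fin n) F) : Matrix (Fin n) (Fin n) F).det := by
    rw [Units.val_one, Matrix.det_one]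
    exact IsSquare.one
  have harith : n * (Fintype.card F - 1) / 4 = m * (Fintype.card F - 1) / 2 := by
    rw [hnm, mul_assoc, show (4 : ℕ) = 2 * 2 by norm_num, Nat.mul_div_mul_left _ _ (by norm_num)]
  rw [harith, ← isSquare_neg_one_pow_iff rfl hodd m]
  rcases model_even h2 (isSy_one (n := n) (F := F)) (by omega : 1 ≤ m) hnm with ⟨P, hP⟩ | ⟨ζ, hζ, P, hP⟩
  · have h3 := (disc_plus isSy_one h2 hnm P hP).mp hdet
    refine ⟨fun _ => cent_iso_quad hn h2 isSy_one P _ 1 ?_, fun h => absurd h3 h⟩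
    intro x
    rw [hP]
    simp only [Units.val_one, one_mul]
  · have h3 := (disc_minus isSy_one h2 (by omega) hnm hζ P hP).mp hdet
    refine ⟨fun h => absurd h h3, fun _ => ⟨1, ζ, anisotropic_of_no_root hζ, cent_iso_quad hn h2 isSy_one P _ 1 ?_⟩⟩
    intro x
    rw [hP]
    simp only [Units.val_one, one_mul]

/-- Three classes. -/
theorem classes_main (hodd : Odd (Fintype.card F)) {m : ℕ} (hm : 2 ≤ m) (hnm : n = 2 * m) :
    ∃ (γ₁ γ₂ γ₃ : MulAut Pn) (a b : F), (∀ z₁ z₂ : F, z₁ ^ 2 + a * z₁ * z₂ + b * z₂ ^ 2 = 0 → z₁ = 0 ∧ z₂ = 0) ∧ IsGraphAutClassPSL γ₁ ∧ orderOf γ₁ = 2 ∧ IsGraphAutClassPSL γ₂ ∧ orderOf γ₂ = 2 ∧ IsGraphAutClassPSL γ₃ ∧ orderOf γ₃ = 2 ∧ ¬ IsConjUnder (inndiagPSL n F) γ₁ γ₂ ∧ ¬ IsConjUnder (inndiagPSL n F) γ₁ γ₃ ∧ ¬ IsConjUnder (inndiagPSL n F) γ₂ γ₃ ∧ (∀ γ : MulAut Pn, IsGraphAutClassPSL γ → orderOf γ = 2 → IsConjUnder (inndiagPSL n F) γ₁ γ ∨ IsConjUnder (inndiagPSL n F) γ₂ γ ∨ IsConjUnder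 (inndiagPSL n F) γ₃ γ) ∧ Nonempty (↥(inndiagPSL n F ⊓ Subgroup.centralizer {γ₁}) ≃* PGSp m F) ∧ Nonempty (↥(inndiagPSL n F ⊓ Subgroup.centralizer {γ₂}) ≃* PGO F (quadFormPlus m F)) ∧ Nonempty (↥(inndiagPSL n F ⊓ Subgroup.centralizer {γ₃}) ≃* PGO F (quadFormMinus (m - 1) F a b)) := by
  classical
  have h2 : (2 : F) ≠ 0 := by
    intro h
    obtain ⟨k, hk⟩ := hodd
    have h3 : ringChar F = 2 := by
      haveI : CharP F 2 := CharTwo.of_one_ne_zero_of_two_eq_zero one_ne_zero h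
      exact ringChar.eq F 2
    rw [FiniteField.even_card_iff_char_two] at h3
    omega
  have hn3 : 3 ≤ n := by omega
  have hn : 2 ≤ n := by omega
  obtain ⟨B₁, P₁, hB₁, hP₁⟩ := exists_alt_rep (F := F) hnm
  obtain ⟨B₂, hB₂, hP₂⟩ := exists_B_of_quad h2 (plusQ m F) (polarNondeg_plusQ m) (stdE m F hnm)
  obtain ⟨ζ, hζ⟩ := exists_no_root (F := F)
  have hab := anisotropic_of_no_root hζ
  let E : (Fin n → F) ≃ₗ[F] ((Fin (m - 1) ⊕ Fin (m - 1)) ⊕ Fin 2 → F) := LinearEquiv.ofFinrankEq _ _ (by simp; omega)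
  obtain ⟨B₃, hB₃, hP₃⟩ := exists_B_of_quad h2 (minusQ (m - 1) F 1 ζ) (polarNondeg_minusQ (m - 1) hab) E
  have hA₂ := not_alt_of_sym h2 (by omega) hB₂
  have hA₃ := not_alt_of_sym h2 (by omega) hB₃
  refine ⟨gaP B₁⁻¹, gaP B₂⁻¹, gaP B₃⁻¹, 1, ζ, hab, isGraph_gaP hn3 _, orderOf_of_alt hn3 hB₁, isGraph_gaP hn3 _, orderOf_of_sym hn3 hB₂,
    isGraph_gaP hn3 _, orderOf_of_sym hn3 hB₃, not_conj_alt hn hB₁ hA₂, not_conj_alt hn hB₁ hA₃,
    not_conj_plus_minus hn (by omega) hζ (stdE m F hnm) E hP₂ hP₃, ?_,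
    cent_iso_bil hn B₁ P₁ (sympForm m F) 1 (fun x y => by rw [hP₁, Units.val_one, one_mul]),
    cent_iso_quad hn h2 hB₂ (stdE m F hnm) _ 1 (fun x => by rw [← hP₂, Units.val_one, one_mul]; rfl),
    cent_iso_quad hn h2 hB₃ E _ 1 (fun x => by rw [← hP₃, Units.val_one, one_mul]; rfl)⟩
  intro γ hγ hγ2
  obtain ⟨B, rfl, hcase⟩ := inv_data hγ hγ2
  rcases hcase with hA | ⟨hS, hA⟩
  · left
    obtain ⟨P, hP⟩ := alt_model hA hnm
    exact conj_of_model hn (sympForm m F) P₁ P 1 1 (fun x y => by rw [hP₁, Units.val_one, one_mul])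
      (fun x y => by rw [hP, Units.val_one, one_mul])
  · right
    rcases model_even h2 hS (by omega) hnm with ⟨P, hP⟩ | ⟨ζ', hζ', P, hP⟩
    · left
      exact conj_of_quad hn h2 hB₂ hS (quadFormPlus m F) (stdE m F hnm) P 1 1
        (fun x => by rw [← hP₂, Units.val_one, one_mul]; rfl) (fun x => by rw [hP, Units.val_one, one_mul])
    · right
      obtain ⟨R, hR⟩ := minus_iso h2 (m - 1) hζ hζ'
      exact conj_of_quad hn h2 hB₃ hS (quadFormMinus (m - 1) F 1 ζ) E (P.trans R) 1 1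
        (fun x => by rw [← hP₃, Units.val_one, one_mul]; rfl)
        (fun x => by rw [LinearEquiv.trans_apply, hR, hP, Units.val_one, one_mul])

end Cfsg.Agent.Lib.Classical.GraphAut.Disc
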