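import Mathlib
import Cfsg.Agent.Lib.Classical.GraphAut.Disc
import Cfsg.Agent.Lib.Classical.Symp.Count
import Cfsg.Agent.S0287
import Cfsg.Agent.S0288

/-!
# Involutory graph automorphisms of `PSL_n`: the `PSL`-classes
-/

set_option autoImplicit false
set_option linter.unusedSectionVars false
set_option linter.unusedSimpArgs false
set_option linter.unusedVariables false
set_option linter.style.haveILetI false

open scoped Matrix MatrixGroups
open Cfsg
open Cfsg.Agent.Lib.Classical.Herm.GLDescent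
open Cfsg.Agent.Lib.Linalg.AutPSLBasic Cfsg.Agent.Lib.Linalg.AutPSLStd
open Cfsg.Agent.Lib.Classical.GraphAut.Basic Cfsg.Agent.Lib.Classical.GraphAut.Forms
open Cfsg.Agent.Lib.Classical.GraphAut.Models Cfsg.Agent.Lib.Classical.GraphAut.Split Cfsg.Agent.Lib.Classical.GraphAut.Disc
open Cfsg.Agent.Lib.Linalg.OrthModels Cfsg.Agent.Lib.Classical.Witt.Index Cfsg.Agent.Lib.Classical.Witt.Hyp
open Cfsg.Agent.Lib.Classical.Symp.Basic
open Module QuadraticMap

namespace Cfsg.Agent.Lib.Classical.GraphAut.Card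

variable {F : Type*} [Field F] [Fintype F] {n : ℕ}

local notation "Pn" => Matrix.ProjectiveSpecialLinearGroup (Fin n) F

section General

variable {ι : Type} [Fintype ι] [DecidableEq ι]

theorem card_scalars [Nonempty ι] : Nat.card (Geo.scalars ι F) = Fintype.card F - 1 := by
  classical
  have hinj : Function.Injective (Units.map (Matrix.scalar ι : F →+* Matrix ι ι F).toMonoidHom) := by
    intro a b h
    obtain ⟨i⟩ := ‹Nonempty ι›
    have h1 := congrArg (fun w : GL ι F => (w : Matrix ι ι F) i i) h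
    simp [Matrix.scalar_apply] at h1
    exact Units.ext h1
  have h2 := Nat.card_congr (MonoidHom.ofInjective hinj).toEquiv
  rw [Geo.scalars, ← h2, card_units_eq]

theorem card_projQuot [Nonempty ι] (H : Subgroup (GL ι F)) (hH : Geo.scalars ι F ≤ H) :
    Nat.card (projQuot H) * (Fintype.card F - 1) = Nat.card H := by
  have h1 := Subgroup.card_eq_card_quotient_mul_card_subgroup ((Geo.scalars ι F).subgroupOf H)
  rw [h1, Nat.card_congr (Subgroup.subgroupOfEquivOfLe hH).toEquiv, card_scalars]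

/-- The group of similarities has at most `q - 1` times as many elements as the group of isometries. -/
theorem card_sim_le (Q : (ι → F) → F) (v₀ : ι → F) (hv₀ : Q v₀ ≠ 0) :
    Nat.card (Geo.quadSimilarityGroup (F := F) Q) ≤ (Fintype.card F - 1) * Nat.card (isometryGroup F Q) := by
  classical
  have hne : ∀ g : Geo.quadSimilarityGroup (F := F) Q, Q ((g : GL ι F) *ᵥ v₀) / Q v₀ ≠ 0 := by
    rintro ⟨g, c, hc⟩
    simp only
    rw [hc]
    exact div_ne_zero (mul_ne_zero c.ne_zero hv₀) hv₀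
  have hfac : ∀ (g : Geo.quadSimilarityGroup (F := F) Q) (v : ι → F), Q ((g : GL ι F) *ᵥ v) = Q ((g : GL ι F) *ᵥ v₀) / Q v₀ * Q v := by
    rintro ⟨g, c, hc⟩ v
    simp only
    rw [hc, hc]
    field_simp
  let μ : Geo.quadSimilarityGroup (F := F) Q →* Fˣ := MonoidHom.mk' (fun g => Units.mk0 _ (hne g)) (by
    intro a b
    apply Units.ext
    simp only [Units.val_mk0, Units.val_mul]
    change Q (((a : GL ι F) * (b : GL ι F) : GL ι F) *ᵥ v₀) / Q v₀ = _
    rw [Units.val_mul, ← Matrix.mulVec_mulVec, hfac a]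
    ring)
  have hμ : ∀ g, ((μ g : Fˣ) : F) = Q ((g : GL ι F) *ᵥ v₀) / Q v₀ := fun g => rfl
  have h1 := Subgroup.card_eq_card_quotient_mul_card_subgroup μ.ker
  rw [Nat.card_congr (QuotientGroup.quotientKerEquivRange μ).toEquiv] at h1
  rw [h1]
  apply Nat.mul_le_mul
  · rw [← card_units_eq]
    exact Subgroup.card_le_card_group _
  · let f : μ.ker → isometryGroup F Q := fun g => ⟨((g : Geo.quadSimilarityGroup (F := F) Q) : GL ι F), by
      intro u _
      have h3 := hfac (g : Geo.quadSimilarityGroup (F := F) Q) u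
      have h4 : μ (g : Geo.quadSimilarityGroup (F := F) Q) = 1 := g.2
      rw [← hμ, h4, Units.val_one, one_mul] at h3
      exact h3⟩
    apply Nat.card_le_card_of_injective f
    intro a b hab
    apply Subtype.ext
    apply Subtype.ext
    exact congrArg (fun x : isometryGroup F Q => (x : GL ι F)) hab

theorem scalars_le_sim (Q : QuadraticForm F (ι → F)) : Geo.scalars ι F ≤ Geo.quadSimilarityGroup (F := F) (⇑Q) := by
  intro g hg
  obtain ⟨c, hc⟩ := mulVec_of_mem_scalars hg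
  refine ⟨c * c, fun v => ?_⟩
  rw [hc, QuadraticMap.map_smul, Units.val_mul, smul_eq_mul]

theorem exists_ne_of_polarNondeg [Nonempty ι] (Q : QuadraticForm F (ι → F)) (hQ : PolarNondeg Q) : ∃ v, Q v ≠ 0 := by
  classical
  by_contra h
  push Not at h
  obtain ⟨i⟩ := ‹Nonempty ι›
  have h1 : (Pi.single i 1 : ι → F) = 0 := by
    apply hQ
    intro y
    rw [polar, h, h, h]
    ring
  have := congrFun h1 i
  simp at this

end General

theorem scalars_le_GSp (m : ℕ) : Geo.scalars (Fin m ⊕ Fin m) F ≤ GSp m F := by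
  intro g hg
  obtain ⟨c, hc⟩ := mulVec_of_mem_scalars hg
  refine ⟨c * c, fun u v => ?_⟩
  rw [hc, hc, Units.val_mul]
  simp only [sympForm, Matrix.mulVec_smul, dotProduct_smul, smul_dotProduct, smul_eq_mul]
  ring

theorem card_sp_le (m : ℕ) : Nat.card (Matrix.symplecticGroup (Fin m) F) ≤ Nat.card (GSp m F) := by
  classical
  have hd : ∀ A : Matrix.symplecticGroup (Fin m) F, (A : Matrix (Fin m ⊕ Fin m) (Fin m ⊕ Fin m) F).det ≠ 0 := by
    intro A
    rw [SymplecticGroup.det_eq_one A.2]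
    exact one_ne_zero
  let f : Matrix.symplecticGroup (Fin m) F → GSp m F := fun A =>
    ⟨Matrix.GeneralLinearGroup.mkOfDetNeZero _ (hd A), ⟨1, fun u v => by
      have h1 := mem_symplecticGroup_iff_forall.mp A.2 u v
      rw [Units.val_one, one_mul]
      exact h1⟩⟩
  apply Nat.card_le_card_of_injective f
  intro a b hab
  apply Subtype.ext
  have h1 := congrArg (fun x : GSp m F => ((x : GL (Fin m ⊕ Fin m) F) : Matrix (Fin m ⊕ Fin m) (Fin m ⊕ Fin m) F)) hab
  exact h1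

/-- The arithmetic. -/
theorem arith_card {q m R : ℕ} (hq : 3 ≤ q) (hm : 2 ≤ m) (hR : 0 < R) {e : ℕ} (he : e = q ^ m - 1 ∨ e = q ^ m + 1) :
    (q - 1) * (2 * q ^ (m * (m - 1)) * e * R) < q ^ (m ^ 2) * (R * (q ^ (2 * (m - 1 + 1)) - 1)) := by
  obtain ⟨k, rfl⟩ : ∃ k, m = k + 2 := ⟨m - 2, by omega⟩
  obtain ⟨X, hX⟩ : ∃ X, X = q ^ (k + 2) := ⟨_, rfl⟩
  have hX2 : q * q ≤ X := by
    rw [hX, pow_add, pow_two]
    exact Nat.le_mul_of_pos_left _ (pow_pos (by omega) _)
  have hq2 : 3 * q ≤ q * q := Nat.mul_le_mul_right _ hq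
  obtain ⟨a, rfl⟩ : ∃ a, q = a + 1 := ⟨q - 1, by omega⟩
  obtain ⟨Y, hY⟩ : ∃ Y, Y = (a + 1) ^ ((k + 2) * (k + 2 - 1)) := ⟨_, rfl⟩
  have hY0 : 0 < Y := by
    rw [hY]
    exact pow_pos (by omega) _
  have h1 : (a + 1) ^ ((k + 2) ^ 2) = Y * X := by
    rw [hY, hX, ← pow_add]
    congr 1
    have : k + 2 - 1 = k + 1 := by omega
    rw [this]
    ring
  have h2 : (a + 1) ^ (2 * (k + 2 - 1 + 1)) = X * X := by
    rw [hX, ← pow_add]
    congr 1
    omega
  have ha : a + 1 - 1 = a := by omega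
  rw [h1, h2, ← hY, ha]
  have hX1 : 1 ≤ X := le_trans (Nat.mul_pos (by omega) (by omega)) hX2
  obtain ⟨Z, rfl⟩ : ∃ Z, X = Z + 1 := ⟨X - 1, by omega⟩
  have h3 : (Z + 1) * (Z + 1) - 1 = Z * (Z + 2) := by
    have : (Z + 1) * (Z + 1) = Z * (Z + 2) + 1 := by ring
    omega
  rw [h3]
  have hZ : 3 * a + 2 ≤ Z := by linarith
  have h4 : 2 * a + 1 ≤ Z * (Z + 1) := by nlinarith
  have hE : e ≤ Z + 2 := by
    rcases he with he | he <;> rw [← hX] at he <;> omega
  have hE2 : 2 * a * e < Z * (Z + 1) * (Z + 2) := by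
    calc 2 * a * e ≤ 2 * a * (Z + 2) := Nat.mul_le_mul_left _ hE
      _ < Z * (Z + 1) * (Z + 2) := by
        apply Nat.mul_lt_mul_of_pos_right _ (by omega)
        omega
  have hpos : 0 < Y * R := Nat.mul_pos hY0 hR
  calc a * (2 * Y * e * R) = (2 * a * e) * (Y * R) := by ring
    _ < (Z * (Z + 1) * (Z + 2)) * (Y * R) := Nat.mul_lt_mul_of_pos_right hE2 hpos
    _ = Y * (Z + 1) * (R * (Z * (Z + 2))) := by ring

/-- `PGO` and `PGSp` have different orders. -/
theorem not_iso_of_card {ι : Type} [Fintype ι] [DecidableEq ι] [Nonempty ι] (h2 : (2 : F) ≠ 0) {m : ℕ} (hm : 2 ≤ m)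
    (Q : QuadraticForm F (ι → F)) (hnd : PolarNondeg Q) {q : ℕ} (hq : q = Fintype.card F) {e : ℕ}
    (he : e = q ^ m - 1 ∨ e = q ^ m + 1)
    (hcard : Nat.card (isometryGroup F (⇑Q)) = 2 * q ^ (m * (m - 1)) * e * ∏ i ∈ Finset.range (m - 1), (q ^ (2 * (i + 1)) - 1)) :
    ¬ Nonempty (PGO F (⇑Q) ≃* PGSp m F) := by
  classical
  rintro ⟨e'⟩
  have hq3 : 3 ≤ q := by
    have h3 : Odd (Fintype.card F) := card_odd_of h2
    have h4 : 2 ≤ Fintype.card F := Fintype.one_lt_card
    rw [hq]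
    obtain ⟨t, ht⟩ := h3
    omega
  have hq1 : 0 < Fintype.card F - 1 := by omega
  haveI : Nonempty (Fin m) := ⟨⟨0, by omega⟩⟩
  have hsp := Cfsg.Agent.Lib.Classical.Symp.Count.card_symplecticGroup (F := F) (q := q) (by rw [hq, Nat.card_eq_fintype_card]) m
  have hR : 0 < ∏ i ∈ Finset.range (m - 1), (q ^ (2 * (i + 1)) - 1) := by
    apply Finset.prod_pos
    intro i _
    have : 1 < q ^ (2 * (i + 1)) := Nat.one_lt_pow (by omega) (by omega)
    omega
  have hsp' : Nat.card (Matrix.symplecticGroup (Fin m) F) =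
      q ^ (m ^ 2) * ((∏ i ∈ Finset.range (m - 1), (q ^ (2 * (i + 1)) - 1)) * (q ^ (2 * (m - 1 + 1)) - 1)) := by
    rw [hsp]
    congr 1
    rw [← Finset.prod_range_succ]
    congr 2
    omega
  have hGSp := card_projQuot (GSp m F) (scalars_le_GSp m)
  have hspl := card_sp_le (F := F) m
  obtain ⟨v₀, hv₀⟩ := exists_ne_of_polarNondeg Q hnd
  have hsim := card_sim_le (⇑Q) v₀ hv₀
  have hP := card_projQuot (Geo.quadSimilarityGroup (F := F) (⇑Q)) (scalars_le_sim Q)
  have heq : Nat.card (PGO F (⇑Q)) = Nat.card (PGSp m F) := Nat.card_congr e'.toEquiv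
  have hS : Nat.card (Geo.quadSimilarityGroup (F := F) (⇑Q)) = Nat.card (GSp m F) := by
    rw [← hP, ← hGSp, ← heq]
  have h3 := arith_card (R := ∏ i ∈ Finset.range (m - 1), (q ^ (2 * (i + 1)) - 1)) hq3 hm hR he
  rw [hcard, ← hq] at hsim
  rw [← hsp'] at h3
  rw [← hS] at hspl
  have h4 : (q - 1) * (2 * q ^ (m * (m - 1)) * e * ∏ i ∈ Finset.range (m - 1), (q ^ (2 * (i + 1)) - 1)) <
      (q - 1) * (2 * q ^ (m * (m - 1)) * e * ∏ i ∈ Finset.range (m - 1), (q ^ (2 * (i + 1)) - 1)) :=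
    lt_of_lt_of_le h3 (le_trans hspl hsim)
  exact lt_irrefl _ h4

/-- The centraliser is not `PGSp` for symmetric forms. -/
theorem not_iso_PGSp (h2 : (2 : F) ≠ 0) {B : GL (Fin n) F} (hB : IsSy B) {m : ℕ} (hm : 2 ≤ m) (hnm : n = 2 * m) :
    ¬ Nonempty (↥(inndiagPSL n F ⊓ Subgroup.centralizer {(gaP B⁻¹ : MulAut Pn)}) ≃* PGSp m F) := by
  classical
  rintro ⟨e⟩
  have hn : 2 ≤ n := by omega
  haveI : Nonempty (Fin m) := ⟨⟨0, by omega⟩⟩
  rcases model_even h2 hB (by omega) hnm with ⟨P, hP⟩ | ⟨ζ, hζ, P, hP⟩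
  · obtain ⟨e₁⟩ := cent_iso_quad hn h2 hB P (⇑(plusQ m F)) 1 (fun x => by
      rw [plusQ_apply, hP]
      simp only [Units.val_one, one_mul])
    exact not_iso_of_card h2 hm (plusQ m F) (polarNondeg_plusQ m) rfl (Or.inl rfl)
      (Cfsg.Agent.S0287.result rfl m (by omega)) ⟨e₁.symm.trans e⟩
  · have hab := anisotropic_of_no_root hζ
    obtain ⟨e₁⟩ := cent_iso_quad hn h2 hB P (⇑(minusQ (m - 1) F 1 ζ)) 1 (fun x => by
      rw [minusQ_apply, hP]
      simp only [Units.val_one, one_mul])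
    exact not_iso_of_card h2 hm (minusQ (m - 1) F 1 ζ) (polarNondeg_minusQ (m - 1) hab) rfl (Or.inr rfl)
      (Cfsg.Agent.S0288.result rfl m (by omega) 1 ζ hab) ⟨e₁.symm.trans e⟩

/-- **The number of `PSL`-classes.** -/
theorem split_main {p f : ℕ} [Fact p.Prime] (hF : Fintype.card F = p ^ f) (hf : 1 ≤ f) (hn : 3 ≤ n) (γ : MulAut Pn) (hγ : IsGraphAutClassPSL γ) (hγ2 : orderOf γ = 2) :
    ((Even n ∧ Odd p ∧ Nonempty (↥(inndiagPSL n F ⊓ Subgroup.centralizer {γ}) ≃* PGSp (n / 2) F)) → splitClassCount (inndiagPSL n F) (Inn Pn) γ = Nat.gcd (n / 2) (p ^ f - 1)) ∧ ((Even n ∧ Odd p ∧ ¬ Nonempty (↥(inndiagPSL n F ⊓ Subgroup.centralizer {γ}) ≃* PGSp (n / 2) F)) → splitClassCount (inndiagPSL n F) (Inn Pn) γ = Nat.gcd n (p ^ f - 1) / 2) ∧ (¬ (Even n ∧ Odd p) → splitClassCount (inndiagPSL n F) (Inn Pn) γ = Nat.gcd n (p ^ f - 1)) := by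
  classical
  rw [← hF]
  obtain ⟨B, rfl, hcase⟩ := inv_data hγ hγ2
  have hn2 : 2 ≤ n := by omega
  have hodd2 : Odd p → (2 : F) ≠ 0 := by
    intro hp h
    have h3 : ringChar F = 2 := by
      haveI : CharP F 2 := CharTwo.of_one_ne_zero_of_two_eq_zero one_ne_zero h
      exact ringChar.eq F 2
    rw [FiniteField.even_card_iff_char_two, hF] at h3
    have h4 : Odd (p ^ f) := hp.pow
    obtain ⟨t, ht⟩ := h4
    omega
  have hmm : Even n → n = 2 * (n / 2) := by
    rintro ⟨t, ht⟩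
    omega
  refine ⟨?_, ?_, ?_⟩
  · rintro ⟨he, hp, hiso⟩
    rcases hcase with hA | ⟨hS, -⟩
    · exact count_alt hn2 hA (hmm he)
    · exact absurd hiso (not_iso_PGSp (hodd2 hp) hS (by have := hmm he; omega) (hmm he))
  · rintro ⟨he, hp, hiso⟩
    rcases hcase with hA | ⟨hS, -⟩
    · exfalso
      apply hiso
      obtain ⟨P, hP⟩ := alt_model hA (hmm he)
      exact cent_iso_bil hn2 B P (sympForm (n / 2) F) 1 (fun x y => by
        rw [hP]
        simp only [Units.val_one, one_mul])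
    · exact count_sym (hodd2 hp) hS (by have := hmm he; omega) (hmm he)
  · intro h
    by_cases he : Even n
    · have hp : ¬ Odd p := fun hp => h ⟨he, hp⟩
      have hpp : p = 2 := by
        rcases (Fact.out : p.Prime).eq_two_or_odd' with h3 | h3
        · exact h3
        · exact absurd h3 hp
      have h3 : ringChar F = 2 := by
        rw [FiniteField.even_card_iff_char_two, hF, hpp]
        rw [← Nat.dvd_iff_mod_eq_zero]
        exact dvd_pow_self 2 (by omega)
      have h4 : (2 : F) = 0 := by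
        have := ringChar.Nat.cast_ringChar (R := F)
        rwa [h3] at this
      exact count_char2 hn2 h4 B
    · exact count_odd hn2 (Nat.not_even_iff_odd.mp he) B

end Cfsg.Agent.Lib.Classical.GraphAut.Card
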