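import Mathlib
import Cfsg.Agent.Lib.Classical.GraphAut.Models

/-!
# Involutory graph automorphisms of `PSL_n`: symmetric nonalternating forms in characteristic two
-/

set_option autoImplicit false
set_option linter.unusedSectionVars false
set_option linter.unusedSimpArgs false
set_option linter.unusedVariables false
set_option linter.style.haveILetI false

open scoped Matrix MatrixGroups
open Cfsg
open Cfsg.Agent.Lib.Classical.GraphAut.Basic Cfsg.Agent.Lib.Classical.GraphAut.Forms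
open Cfsg.Agent.Lib.Classical.GraphAut.Models
open Cfsg.Agent.Lib.Classical.Symp.Basic
open Module

namespace Cfsg.Agent.Lib.Classical.GraphAut.Char2

variable {F : Type*} [Field F] [Fintype F] {n : ℕ}

local notation "Pn" => Matrix.ProjectiveSpecialLinearGroup (Fin n) F

theorem sq_inj_two (h2 : (2 : F) = 0) {x y : F} (h : x ^ 2 = y ^ 2) : x = y := by
  have h1 : (x - y) ^ 2 = 0 := by linear_combination h + (y ^ 2 - x * y) * h2
  exact sub_eq_zero.mp ((pow_eq_zero_iff two_ne_zero).mp h1)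

theorem exists_rt (h2 : (2 : F) = 0) : ∃ rt : F → F, ∀ x, rt x ^ 2 = x := by
  classical
  have hc : ringChar F = 2 := by
    haveI : CharP F 2 := CharTwo.of_one_ne_zero_of_two_eq_zero one_ne_zero h2
    exact ringChar.eq F 2
  have h1 : ∀ x : F, ∃ y : F, y ^ 2 = x := by
    intro x
    obtain ⟨y, hy⟩ := FiniteField.isSquare_of_char_two hc x
    exact ⟨y, by rw [hy, pow_two]⟩
  choose rt hrt using h1
  exact ⟨rt, hrt⟩

/-- The canonical linear form of a symmetric form in characteristic two. -/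
theorem exists_ell (h2 : (2 : F) = 0) {B : GL (Fin n) F} (hS : IsSy B) :
    ∃ ℓ : (Fin n → F) →ₗ[F] F, ∀ x, ℓ x ^ 2 = fB (B : Matrix (Fin n) (Fin n) F) x x := by
  obtain ⟨rt, hrt⟩ := exists_rt h2
  refine ⟨{ toFun := fun x => rt (fB (B : Matrix (Fin n) (Fin n) F) x x), map_add' := ?_, map_smul' := ?_ }, fun x => hrt _⟩
  · intro x y
    apply sq_inj_two h2
    rw [hrt, fB_add_left, fB_add_right, fB_add_right, hS y x]
    have e1 := hrt (fB (B : Matrix (Fin n) (Fin n) F) x x)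
    have e2 := hrt (fB (B : Matrix (Fin n) (Fin n) F) y y)
    linear_combination -e1 - e2 + (fB (B : Matrix (Fin n) (Fin n) F) x y - rt (fB (B : Matrix (Fin n) (Fin n) F) x x) * rt (fB (B : Matrix (Fin n) (Fin n) F) y y)) * h2
  · intro c x
    apply sq_inj_two h2
    rw [hrt, fB_smul_left, fB_smul_right, RingHom.id_apply, smul_eq_mul, mul_pow, hrt]
    ring

/-- The form is represented. -/
theorem exists_rep (B : GL (Fin n) F) (φ : (Fin n → F) →ₗ[F] F) :
    ∃ w, ∀ x, fB (B : Matrix (Fin n) (Fin n) F) w x = φ x := by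
  refine ⟨((bB (B : Matrix (Fin n) (Fin n) F)).toDual (bB_nondeg B)).symm φ, fun x => ?_⟩
  rw [← bB_apply, LinearMap.BilinForm.apply_toDual_symm_apply]

section Setup

variable {B : GL (Fin n) F} {ℓ : (Fin n → F) →ₗ[F] F} {w : Fin n → F}

theorem ell_ne (hA : ¬ IsAl B) (hℓ : ∀ x, ℓ x ^ 2 = fB (B : Matrix (Fin n) (Fin n) F) x x) : ∃ x, ℓ x ≠ 0 := by
  by_contra hcon
  push Not at hcon
  apply hA
  intro x
  rw [← hℓ, hcon x]
  simp

theorem ell_w (hℓ : ∀ x, ℓ x ^ 2 = fB (B : Matrix (Fin n) (Fin n) F) x x)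
    (hw : ∀ x, fB (B : Matrix (Fin n) (Fin n) F) w x = ℓ x) : ℓ w = 0 ∨ ℓ w = 1 := by
  have h1 := hℓ w
  rw [hw] at h1
  have h3 : ℓ w * (ℓ w - 1) = 0 := by linear_combination h1
  rcases mul_eq_zero.mp h3 with h | h
  · exact Or.inl h
  · exact Or.inr (sub_eq_zero.mp h)

/-- The alternating form attached. -/
noncomputable def aB (B : GL (Fin n) F) (ℓ : (Fin n → F) →ₗ[F] F) : LinearMap.BilinForm F (Fin n → F) :=
  bB (B : Matrix (Fin n) (Fin n) F) + LinearMap.BilinForm.linMulLin ℓ ℓ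

theorem aB_apply (x y : Fin n → F) : aB B ℓ x y = fB (B : Matrix (Fin n) (Fin n) F) x y + ℓ x * ℓ y := by
  rw [aB, LinearMap.add_apply, LinearMap.add_apply, bB_apply, LinearMap.BilinForm.linMulLin_apply]

theorem aB_alt (h2 : (2 : F) = 0) (hℓ : ∀ x, ℓ x ^ 2 = fB (B : Matrix (Fin n) (Fin n) F) x x) : (aB B ℓ).IsAlt := by
  intro x
  rw [aB_apply, ← hℓ]
  linear_combination (ℓ x ^ 2) * h2

/-- If `ℓ w = 0`, the alternating form is nondegenerate. -/
theorem aB_nondeg (h2 : (2 : F) = 0) (hℓ : ∀ x, ℓ x ^ 2 = fB (B : Matrix (Fin n) (Fin n) F) x x)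
    (hw : ∀ x, fB (B : Matrix (Fin n) (Fin n) F) w x = ℓ x) (h0 : ℓ w = 0) : (aB B ℓ).Nondegenerate := by
  have hL : ∀ x, (∀ y, aB B ℓ x y = 0) → x = 0 := by
    intro x hx
    have h1 : x = (ℓ x) • w := by
      rw [← sub_eq_zero]
      apply fB_left_nondeg B
      intro y
      have h3 := hx y
      rw [aB_apply] at h3
      have h4 : fB (B : Matrix (Fin n) (Fin n) F) (x - ℓ x • w) y = fB (B : Matrix (Fin n) (Fin n) F) x y + (-(ℓ x)) * fB (B : Matrix (Fin n) (Fin n) F) w y := by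
        rw [sub_eq_add_neg, fB_add_left, ← neg_smul, fB_smul_left]
      rw [h4, hw]
      linear_combination h3 - ℓ x * ℓ y * h2
    have h3 : ℓ x = 0 := by
      rw [h1, map_smul, h0, smul_zero]
    rw [h1, h3, zero_smul]
  refine ⟨fun x hx => hL x hx, fun y hy => hL y (fun x => ?_)⟩
  have h1 := LinearMap.BilinForm.IsAlt.neg_eq (aB_alt h2 hℓ) x y
  have h3 := hy x
  rw [← h1, h3, neg_zero]

theorem restrict_bB (W : Submodule F (Fin n → F)) (u v : W) :
    (bB (B : Matrix (Fin n) (Fin n) F)).restrict W u v = fB (B : Matrix (Fin n) (Fin n) F) (u : Fin n → F) (v : Fin n → F) :=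
  bB_apply (B : Matrix (Fin n) (Fin n) F) (u : Fin n → F) (v : Fin n → F)

/-- If `ℓ w = 1`, the hyperplane `ker ℓ` carries a nondegenerate alternating form. -/
theorem ker_nondeg (hℓ : ∀ x, ℓ x ^ 2 = fB (B : Matrix (Fin n) (Fin n) F) x x) (hS : IsSy B)
    (hw : ∀ x, fB (B : Matrix (Fin n) (Fin n) F) w x = ℓ x) (h1 : ℓ w = 1) :
    ((bB (B : Matrix (Fin n) (Fin n) F)).restrict (LinearMap.ker ℓ)).Nondegenerate := by
  have hL : ∀ x : LinearMap.ker ℓ, (∀ y : LinearMap.ker ℓ, fB (B : Matrix (Fin n) (Fin n) F) (x : Fin n → F) (y : Fin n → F) = 0) → x = 0 := by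
    intro x hx
    apply Subtype.ext
    apply fB_left_nondeg B
    intro y
    have hy : y - ℓ y • w ∈ LinearMap.ker ℓ := by
      rw [LinearMap.mem_ker, map_sub, map_smul, h1, smul_eq_mul, mul_one, sub_self]
    have h3 := hx ⟨_, hy⟩
    simp only at h3
    rw [sub_eq_add_neg, fB_add_right, ← neg_smul, fB_smul_right, hS (x : Fin n → F) w, hw, LinearMap.mem_ker.mp x.2, mul_zero, add_zero] at h3
    exact h3
  refine ⟨fun x hx => hL x (fun y => ?_), fun y hy => hL y (fun x => ?_)⟩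
  · have := hx y
    rwa [restrict_bB] at this
  · have := hy x
    rw [restrict_bB] at this
    rw [hS]
    exact this

theorem ker_alt (hℓ : ∀ x, ℓ x ^ 2 = fB (B : Matrix (Fin n) (Fin n) F) x x) :
    ((bB (B : Matrix (Fin n) (Fin n) F)).restrict (LinearMap.ker ℓ)).IsAlt := by
  intro x
  rw [restrict_bB, ← hℓ, LinearMap.mem_ker.mp x.2]
  simp

theorem finrank_ker_ell (hℓ : ∃ x, ℓ x ≠ 0) : finrank F (LinearMap.ker ℓ) + 1 = n := by
  have h1 := LinearMap.finrank_range_add_finrank_ker ℓ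
  have h3 : LinearMap.range ℓ = ⊤ := by
    obtain ⟨x, hx⟩ := hℓ
    apply LinearMap.range_eq_top.mpr
    intro y
    refine ⟨(y / ℓ x) • x, ?_⟩
    rw [map_smul, smul_eq_mul]
    field_simp
  rw [h3, finrank_top, Module.finrank_self, Module.finrank_fin_fun] at h1
  omega

end Setup

/-- The standard form on `Unit ⊕ (Fin m ⊕ Fin m)`. -/
def f₀ (m : ℕ) (F : Type*) [Field F] (u v : Unit ⊕ (Fin m ⊕ Fin m) → F) : F :=
  u (.inl ()) * v (.inl ()) + sympForm m F (fun i => u (.inr i)) (fun i => v (.inr i))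

/-- The canonical form, odd dimension. -/
theorem canon_odd (h2 : (2 : F) = 0) {B : GL (Fin n) F} (hS : IsSy B) (hA : ¬ IsAl B) {m : ℕ} (hnm : n = 2 * m + 1) :
    ∃ P : (Fin n → F) ≃ₗ[F] (Unit ⊕ (Fin m ⊕ Fin m) → F), ∀ x y, f₀ m F (P x) (P y) = fB (B : Matrix (Fin n) (Fin n) F) x y := by
  classical
  obtain ⟨ℓ, hℓ⟩ := exists_ell h2 hS
  obtain ⟨w, hw⟩ := exists_rep B ℓ
  have hne := ell_ne hA hℓ
  have hfr := finrank_ker_ell hne
  have h1 : ℓ w = 1 := by
    rcases ell_w hℓ hw with h0 | h1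
    · exfalso
      obtain ⟨k, hk⟩ := Cfsg.Agent.Lib.Classical.Symp.DecompMax.even_finrank n _ (aB_alt h2 hℓ) (aB_nondeg h2 hℓ hw h0) (by simp)
      omega
    · exact h1
  obtain ⟨e, he⟩ := Cfsg.Agent.Lib.Classical.Symp.SympBasis.exists_sympEquiv _ (ker_alt hℓ) (ker_nondeg hℓ hS hw h1) (k := m) (by omega)
  have hmem : ∀ x, x - ℓ x • w ∈ LinearMap.ker ℓ := by
    intro x
    rw [LinearMap.mem_ker, map_sub, map_smul, h1, smul_eq_mul, mul_one, sub_self]
  let p : (Fin n → F) →ₗ[F] LinearMap.ker ℓ :=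
    LinearMap.codRestrict _ (LinearMap.id - ℓ.smulRight w) (fun x => by
      simpa using hmem x)
  have hp : ∀ x, ((p x : LinearMap.ker ℓ) : Fin n → F) = x - ℓ x • w := fun x => rfl
  let T : (Fin n → F) →ₗ[F] (Unit ⊕ (Fin m ⊕ Fin m) → F) :=
    { toFun := fun x => Sum.elim (fun _ => ℓ x) (e (p x))
      map_add' := by
        intro x y
        funext i
        rcases i with i | i
        · simp
        · simp
      map_smul' := by
        intro c x
        funext i
        rcases i with i | i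
        · simp
        · simp }
  have hT1 : ∀ x, T x (.inl ()) = ℓ x := fun x => rfl
  have hT2 : ∀ x, (fun i => T x (.inr i)) = e (p x) := fun x => rfl
  have hinj : Function.Injective T := by
    rw [injective_iff_map_eq_zero]
    intro x hx
    have h3 : ℓ x = 0 := by
      have := congrFun hx (.inl ())
      rwa [hT1] at this
    have h4 : e (p x) = 0 := by
      rw [← hT2, hx]
      rfl
    have h5 : p x = 0 := by simpa using h4
    have h6 := hp x
    rw [h5, h3, zero_smul, sub_zero] at h6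
    exact h6.symm
  let P : (Fin n → F) ≃ₗ[F] (Unit ⊕ (Fin m ⊕ Fin m) → F) := LinearMap.linearEquivOfInjective T hinj (by
    simp [hnm, two_mul]
    omega)
  have hPT : ∀ x, P x = T x := fun x => rfl
  refine ⟨P, fun x y => ?_⟩
  rw [hPT, hPT, f₀, hT1, hT1, hT2, hT2, he, restrict_bB, hp, hp]
  rw [sub_eq_add_neg, sub_eq_add_neg, fB_add_left, fB_add_right, fB_add_right, ← neg_smul, ← neg_smul,
    fB_smul_left, fB_smul_right, fB_smul_left, fB_smul_right, hS x w, hw, hw, hw, h1]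
  ring

/-- The standard nonalternating form on `Fin m ⊕ Fin m`. -/
def f₁ (m : ℕ) (F : Type*) [Field F] (w₀ : Fin m ⊕ Fin m → F) (u v : Fin m ⊕ Fin m → F) : F :=
  sympForm m F u v + sympForm m F w₀ u * sympForm m F w₀ v

/-- The canonical form, even dimension. -/
theorem canon_even (h2 : (2 : F) = 0) {B : GL (Fin n) F} (hS : IsSy B) (hA : ¬ IsAl B) {m : ℕ} (hnm : n = 2 * m)
    (w₀ : Fin m ⊕ Fin m → F) (hw₀ : w₀ ≠ 0) :
    ∃ P : (Fin n → F) ≃ₗ[F] (Fin m ⊕ Fin m → F), ∀ x y, f₁ m F w₀ (P x) (P y) = fB (B : Matrix (Fin n) (Fin n) F) x y := by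
  classical
  obtain ⟨ℓ, hℓ⟩ := exists_ell h2 hS
  obtain ⟨w, hw⟩ := exists_rep B ℓ
  have hne := ell_ne hA hℓ
  have hfr := finrank_ker_ell hne
  have h0 : ℓ w = 0 := by
    rcases ell_w hℓ hw with h0 | h1
    · exact h0
    · exfalso
      obtain ⟨k, hk⟩ := Cfsg.Agent.Lib.Classical.Symp.DecompMax.even_finrank _ _ (ker_alt hℓ) (ker_nondeg hℓ hS hw h1) rfl
      omega
  have hnd := aB_nondeg h2 hℓ hw h0
  obtain ⟨e, he⟩ := Cfsg.Agent.Lib.Classical.Symp.SympBasis.exists_sympEquiv _ (aB_alt h2 hℓ) hnd (k := m) (by simp [hnm])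
  have hw0 : w ≠ 0 := by
    rintro rfl
    obtain ⟨x, hx⟩ := hne
    rw [← hw] at hx
    apply hx
    simp [fB]
  have hew : e w ≠ 0 := by simpa using hw0
  obtain ⟨A, hA1, hA2⟩ := closure_transitive_vec hew hw₀
  have hAsp : ∀ u v, sympForm m F ((A : Matrix _ _ F) *ᵥ u) ((A : Matrix _ _ F) *ᵥ v) = sympForm m F u v :=
    mem_symplecticGroup_iff_forall.mp A.2
  let E : (Fin m ⊕ Fin m → F) ≃ₗ[F] (Fin m ⊕ Fin m → F) := spEquivIsom A
  have hE : ∀ x, E x = (A : Matrix _ _ F) *ᵥ x := fun x => rfl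
  refine ⟨e.trans E, fun x y => ?_⟩
  have h3 : ∀ x, sympForm m F w₀ ((e.trans E) x) = ℓ x := by
    intro x
    rw [LinearEquiv.trans_apply, hE, ← hA2, hAsp, he, aB_apply, hw, h0, zero_mul, add_zero]
  rw [f₁, h3, h3, LinearEquiv.trans_apply, LinearEquiv.trans_apply, hE, hE, hAsp, he, aB_apply]
  linear_combination (ℓ x * ℓ y) * h2

end Cfsg.Agent.Lib.Classical.GraphAut.Char2
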