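import Mathlib
import Cfsg.Agent.Lib.Classical.GraphAut.Char2
import Cfsg.Agent.Lib.Linalg.TransvectionForm

/-!
# Involutory graph automorphisms of `PSL_n`: centralisers in characteristic two
-/

set_option autoImplicit false
set_option linter.unusedSectionVars false
set_option linter.unusedSimpArgs false
set_option linter.unusedVariables false
set_option linter.style.haveILetI false

open scoped Matrix MatrixGroups
open Cfsg
open Cfsg.Agent.Lib.Classical.GraphAut.Basic Cfsg.Agent.Lib.Classical.GraphAut.Forms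
open Cfsg.Agent.Lib.Classical.GraphAut.Models Cfsg.Agent.Lib.Classical.GraphAut.Char2
open Cfsg.Agent.Lib.Classical.Symp.Basic
open Module

namespace Cfsg.Agent.Lib.Classical.GraphAut.Char2Iso

variable {F : Type*} [Field F] [Fintype F] {n : ℕ}

local notation "Pn" => Matrix.ProjectiveSpecialLinearGroup (Fin n) F

section General

variable {ι : Type} [Fintype ι] [DecidableEq ι]

/-- A subgroup meeting the scalars trivially and covering `H` modulo scalars. -/
theorem proj_equiv_of (H O : Subgroup (GL ι F)) (hOH : O ≤ H)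
    (hs : ∀ h ∈ H, ∃ o ∈ O, o⁻¹ * h ∈ Geo.scalars ι F)
    (hinj : ∀ o ∈ O, o ∈ Geo.scalars ι F → o = 1) :
    Nonempty (projQuot H ≃* O) := by
  let f : O →* projQuot H := (QuotientGroup.mk' _).comp (Subgroup.inclusion hOH)
  have hf : Function.Bijective f := by
    constructor
    · rw [injective_iff_map_eq_one]
      intro o ho
      have h1 : (Subgroup.inclusion hOH o) ∈ (Geo.scalars ι F).subgroupOf H := (QuotientGroup.eq_one_iff _).mp ho
      have h2 : (o : GL ι F) ∈ Geo.scalars ι F := h1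
      exact Subtype.ext (hinj _ o.2 h2)
    · intro x
      obtain ⟨h, rfl⟩ := QuotientGroup.mk_surjective x
      obtain ⟨o, ho, hz⟩ := hs h h.2
      refine ⟨⟨o, ho⟩, ?_⟩
      apply QuotientGroup.eq.mpr
      exact hz
  exact ⟨(MulEquiv.ofBijective f hf).symm⟩

/-- The scalar with a given unit. -/
noncomputable def sI (c : Fˣ) : GL ι F := Units.map (Matrix.scalar ι : F →+* Matrix ι ι F).toMonoidHom c

theorem sI_mulVec (c : Fˣ) (x : ι → F) : ((sI c : GL ι F) : Matrix ι ι F) *ᵥ x = (c : F) • x := by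
  change Matrix.scalar ι (c : F) *ᵥ x = _
  rw [Matrix.scalar_apply, ← Matrix.smul_one_eq_diagonal, Matrix.smul_mulVec, Matrix.one_mulVec]

theorem sI_mem (c : Fˣ) : (sI c : GL ι F) ∈ Geo.scalars ι F := ⟨c, rfl⟩

theorem exists_unit_rt (h2 : (2 : F) = 0) (c : Fˣ) : ∃ l : Fˣ, (l : F) ^ 2 = c := by
  obtain ⟨rt, hrt⟩ := exists_rt h2
  have h1 := hrt c
  have h3 : rt c ≠ 0 := by
    intro h0
    rw [h0] at h1
    exact c.ne_zero (by rw [← h1]; simp)
  exact ⟨Units.mk0 _ h3, h1⟩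

/-- Bilinear similarities modulo scalars, in characteristic two. -/
theorem proj_sim_bil (h2 : (2 : F) = 0) (f : (ι → F) → (ι → F) → F)
    (hf : ∀ (c : F) u v, f (c • u) (c • v) = c ^ 2 * f u v) (hne : ∃ u v, f u v ≠ 0) :
    Nonempty (projQuot (Geo.similarityGroup f) ≃* preserving (Units.coeHom (Matrix ι ι F)) f) := by
  obtain ⟨u₀, v₀, hne⟩ := hne
  apply proj_equiv_of
  · intro g hg
    exact ⟨1, fun u v => by
      rw [Units.val_one, one_mul]
      exact hg u v⟩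
  · rintro h ⟨c, hc⟩
    obtain ⟨l, hl⟩ := exists_unit_rt h2 c
    refine ⟨h * sI l⁻¹, ?_, ?_⟩
    · intro u v
      change f (((h * sI l⁻¹ : GL ι F) : Matrix ι ι F) *ᵥ u) (((h * sI l⁻¹ : GL ι F) : Matrix ι ι F) *ᵥ v) = f u v
      have hl' : (c : F) * ((l⁻¹ : Fˣ) : F) ^ 2 = 1 := by
        rw [← hl, ← mul_pow, Units.mul_inv, one_pow]
      rw [Units.val_mul, ← Matrix.mulVec_mulVec, ← Matrix.mulVec_mulVec, sI_mulVec, sI_mulVec, hc, hf, ← mul_assoc, hl', one_mul]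
    · rw [mul_inv_rev, inv_mul_cancel_right]
      exact Subgroup.inv_mem _ (sI_mem _)
  · intro o ho hz
    obtain ⟨c, hc⟩ := mulVec_of_mem_scalars hz
    have h3 : f (((o : GL ι F) : Matrix ι ι F) *ᵥ u₀) (((o : GL ι F) : Matrix ι ι F) *ᵥ v₀) = f u₀ v₀ := ho u₀ v₀
    rw [hc, hc, hf] at h3
    have h4 : (c : F) ^ 2 = 1 := by
      have : ((c : F) ^ 2 - 1) * f u₀ v₀ = 0 := by linear_combination h3
      exact sub_eq_zero.mp ((mul_eq_zero.mp this).resolve_right hne)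
    have h5 : (c : F) = 1 := sq_inj_two h2 (by rw [h4, one_pow])
    apply Units.ext
    apply Matrix.mulVec_injective
    funext x
    rw [hc, h5, one_smul, Units.val_one, Matrix.one_mulVec]

/-- Quadratic similarities modulo scalars, in characteristic two. -/
theorem proj_sim_quad (h2 : (2 : F) = 0) (Q : (ι → F) → F)
    (hQ : ∀ (c : F) u, Q (c • u) = c ^ 2 * Q u) (hne : ∃ u, Q u ≠ 0) :
    Nonempty (PGO F Q ≃* isometryGroup F Q) := by
  obtain ⟨u₀, hne⟩ := hne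
  apply proj_equiv_of
  · intro g hg
    exact ⟨1, fun u => by
      rw [Units.val_one, one_mul]
      exact hg u 0⟩
  · rintro h ⟨c, hc⟩
    obtain ⟨l, hl⟩ := exists_unit_rt h2 c
    refine ⟨h * sI l⁻¹, ?_, ?_⟩
    · intro u v
      change Q (((h * sI l⁻¹ : GL ι F) : Matrix ι ι F) *ᵥ u) = Q u
      have hl' : (c : F) * ((l⁻¹ : Fˣ) : F) ^ 2 = 1 := by
        rw [← hl, ← mul_pow, Units.mul_inv, one_pow]
      rw [Units.val_mul, ← Matrix.mulVec_mulVec, sI_mulVec, hc, hQ, ← mul_assoc, hl', one_mul]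
    · rw [mul_inv_rev, inv_mul_cancel_right]
      exact Subgroup.inv_mem _ (sI_mem _)
  · intro o ho hz
    obtain ⟨c, hc⟩ := mulVec_of_mem_scalars hz
    have h3 : Q (((o : GL ι F) : Matrix ι ι F) *ᵥ u₀) = Q u₀ := ho u₀ 0
    rw [hc, hQ] at h3
    have h4 : (c : F) ^ 2 = 1 := by
      have : ((c : F) ^ 2 - 1) * Q u₀ = 0 := by linear_combination h3
      exact sub_eq_zero.mp ((mul_eq_zero.mp this).resolve_right hne)
    have h5 : (c : F) = 1 := sq_inj_two h2 (by rw [h4, one_pow])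
    apply Units.ext
    apply Matrix.mulVec_injective
    funext x
    rw [hc, h5, one_smul, Units.val_one, Matrix.one_mulVec]

end General

/-! ### Additive quadratic functions -/

theorem exists_linear_sqrt (h2 : (2 : F) = 0) {V : Type*} [AddCommGroup V] [Module F V] (D : V → F)
    (hadd : ∀ x y, D (x + y) = D x + D y) (hsm : ∀ (c : F) x, D (c • x) = c ^ 2 * D x) :
    ∃ ρ : V →ₗ[F] F, ∀ x, ρ x ^ 2 = D x := by
  obtain ⟨rt, hrt⟩ := exists_rt h2
  refine ⟨{ toFun := fun x => rt (D x), map_add' := ?_, map_smul' := ?_ }, fun x => hrt _⟩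
  · intro x y
    apply sq_inj_two h2
    rw [hrt, hadd]
    have e1 := hrt (D x)
    have e2 := hrt (D y)
    linear_combination -e1 - e2 - rt (D x) * rt (D y) * h2
  · intro c x
    apply sq_inj_two h2
    rw [hrt, hsm, RingHom.id_apply, smul_eq_mul, mul_pow, hrt]

/-! ### The hub -/

section Hub

variable {m : ℕ}

local notation "κ" => (Fin m ⊕ Fin m)
local notation "ιi" => (Unit ⊕ (Fin m ⊕ Fin m))

/-- The `κ`-part of a vector. -/
def inrP (x : ιi → F) : κ → F := fun i => x (.inr i)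

/-- The vector with zero first coordinate. -/
def emb (x : κ → F) : ιi → F := Sum.elim (fun _ => 0) x

/-- The first basis vector. -/
def e₀ (m : ℕ) (F : Type*) [Field F] : Unit ⊕ (Fin m ⊕ Fin m) → F := Sum.elim (fun _ => 1) (fun _ => 0)

@[simp] theorem inrP_emb (x : κ → F) : inrP (emb x) = x := rfl
@[simp] theorem inrP_e₀ : inrP (e₀ m F) = 0 := rfl
@[simp] theorem inrP_add (x y : ιi → F) : inrP (x + y) = inrP x + inrP y := rfl
@[simp] theorem inrP_smul (c : F) (x : ιi → F) : inrP (c • x) = c • inrP x := rfl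
@[simp] theorem emb_inl (x : κ → F) : emb x (.inl ()) = 0 := rfl
@[simp] theorem e₀_inl : e₀ m F (.inl ()) = 1 := rfl

theorem eq_decomp (x : ιi → F) : x = x (.inl ()) • e₀ m F + emb (inrP x) := by
  funext i
  rcases i with i | i
  · simp [e₀, emb]
  · simp [e₀, emb, inrP]

/-- The submatrix. -/
def sub (g : Matrix ιi ιi F) : Matrix κ κ F := g.submatrix Sum.inr Sum.inr

theorem sub_mulVec (g : Matrix ιi ιi F) (x : κ → F) : sub g *ᵥ x = inrP (g *ᵥ emb x) := by
  funext i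
  simp only [sub, inrP, Matrix.mulVec, dotProduct, Matrix.submatrix_apply, Fintype.sum_sum_type, emb, Sum.elim_inl, Sum.elim_inr,
    mul_zero, Finset.sum_const_zero, zero_add]

/-- The subgroup of those matrices which fix `e₀` and preserve the form modulo `e₀`. -/
def C₀ (m : ℕ) (F : Type*) [Field F] : Subgroup (GL (Unit ⊕ (Fin m ⊕ Fin m)) F) where
  carrier := {g | (g : Matrix (Unit ⊕ (Fin m ⊕ Fin m)) (Unit ⊕ (Fin m ⊕ Fin m)) F) *ᵥ e₀ m F = e₀ m F ∧ ∀ u v, sympForm m F (inrP ((g : Matrix (Unit ⊕ (Fin m ⊕ Fin m)) (Unit ⊕ (Fin m ⊕ Fin m)) F) *ᵥ u)) (inrP ((g : Matrix (Unit ⊕ (Fin m ⊕ Fin m)) (Unit ⊕ (Fin m ⊕ Fin m)) F) *ᵥ v)) = sympForm m F (inrP u) (inrP v)}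
  mul_mem' := by
    rintro a b ⟨ha1, ha2⟩ ⟨hb1, hb2⟩
    refine ⟨?_, fun u v => ?_⟩
    · rw [Units.val_mul, ← Matrix.mulVec_mulVec, hb1, ha1]
    · rw [Units.val_mul, ← Matrix.mulVec_mulVec, ← Matrix.mulVec_mulVec, ha2, hb2]
  one_mem' := by
    refine ⟨?_, fun u v => ?_⟩
    · rw [Units.val_one, Matrix.one_mulVec]
    · rw [Units.val_one, Matrix.one_mulVec, Matrix.one_mulVec]
  inv_mem' := by
    rintro a ⟨ha1, ha2⟩
    have h1 : ∀ x, (a : Matrix (Unit ⊕ (Fin m ⊕ Fin m)) (Unit ⊕ (Fin m ⊕ Fin m)) F) *ᵥ (((a⁻¹ : GL (Unit ⊕ (Fin m ⊕ Fin m)) F) : Matrix (Unit ⊕ (Fin m ⊕ Fin m)) (Unit ⊕ (Fin m ⊕ Fin m)) F) *ᵥ x) = x := by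
      intro x
      rw [Matrix.mulVec_mulVec, ← Units.val_mul, mul_inv_cancel, Units.val_one, Matrix.one_mulVec]
    have h3 : ∀ x, ((a⁻¹ : GL (Unit ⊕ (Fin m ⊕ Fin m)) F) : Matrix (Unit ⊕ (Fin m ⊕ Fin m)) (Unit ⊕ (Fin m ⊕ Fin m)) F) *ᵥ ((a : Matrix (Unit ⊕ (Fin m ⊕ Fin m)) (Unit ⊕ (Fin m ⊕ Fin m)) F) *ᵥ x) = x := by
      intro x
      rw [Matrix.mulVec_mulVec, ← Units.val_mul, inv_mul_cancel, Units.val_one, Matrix.one_mulVec]
    refine ⟨?_, fun u v => ?_⟩
    · conv_lhs => rw [← ha1]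
      exact h3 _
    · rw [← ha2, h1, h1]

theorem inrP_of_C₀ {g : GL ιi F} (hg : g ∈ C₀ m F) (x : ιi → F) :
    inrP ((g : Matrix (Unit ⊕ (Fin m ⊕ Fin m)) (Unit ⊕ (Fin m ⊕ Fin m)) F) *ᵥ x) = sub (g : Matrix (Unit ⊕ (Fin m ⊕ Fin m)) (Unit ⊕ (Fin m ⊕ Fin m)) F) *ᵥ inrP x := by
  conv_lhs => rw [eq_decomp x]
  rw [Matrix.mulVec_add, Matrix.mulVec_smul, hg.1, inrP_add, inrP_smul, inrP_e₀, smul_zero, zero_add, sub_mulVec]

theorem sub_mul_of_C₀ {g g' : GL ιi F} (hg : g ∈ C₀ m F) :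
    sub ((g * g' : GL ιi F) : Matrix (Unit ⊕ (Fin m ⊕ Fin m)) (Unit ⊕ (Fin m ⊕ Fin m)) F) = sub (g : Matrix (Unit ⊕ (Fin m ⊕ Fin m)) (Unit ⊕ (Fin m ⊕ Fin m)) F) * sub (g' : Matrix (Unit ⊕ (Fin m ⊕ Fin m)) (Unit ⊕ (Fin m ⊕ Fin m)) F) := by
  apply Matrix.mulVec_injective
  funext x
  rw [sub_mulVec, Units.val_mul, ← Matrix.mulVec_mulVec, inrP_of_C₀ hg, ← sub_mulVec, Matrix.mulVec_mulVec]

theorem sub_mem_of_C₀ {g : GL ιi F} (hg : g ∈ C₀ m F) : sub (g : Matrix (Unit ⊕ (Fin m ⊕ Fin m)) (Unit ⊕ (Fin m ⊕ Fin m)) F) ∈ Matrix.symplecticGroup (Fin m) F := by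
  rw [mem_symplecticGroup_iff_forall]
  intro u v
  rw [sub_mulVec, sub_mulVec, hg.2]
  rfl

/-- The homomorphism to the symplectic group. -/
noncomputable def ψ (m : ℕ) (F : Type*) [Field F] [Fintype F] : C₀ m F →* Matrix.symplecticGroup (Fin m) F where
  toFun g := ⟨sub ((g : GL (Unit ⊕ (Fin m ⊕ Fin m)) F) : Matrix (Unit ⊕ (Fin m ⊕ Fin m)) (Unit ⊕ (Fin m ⊕ Fin m)) F), sub_mem_of_C₀ g.2⟩
  map_one' := by
    apply Subtype.ext
    change sub ((1 : GL (Unit ⊕ (Fin m ⊕ Fin m)) F) : Matrix (Unit ⊕ (Fin m ⊕ Fin m)) (Unit ⊕ (Fin m ⊕ Fin m)) F) = 1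
    rw [Units.val_one, sub, Matrix.submatrix_one _ Sum.inr_injective]
  map_mul' a b := by
    apply Subtype.ext
    exact sub_mul_of_C₀ a.2

theorem coe_ψ (g : C₀ m F) : ((ψ m F g : Matrix.symplecticGroup (Fin m) F) : Matrix κ κ F) = sub ((g : GL (Unit ⊕ (Fin m ⊕ Fin m)) F) : Matrix (Unit ⊕ (Fin m ⊕ Fin m)) (Unit ⊕ (Fin m ⊕ Fin m)) F) := rfl

/-- Building an element from its symplectic part and a functional. -/
theorem exists_block (s : Matrix.symplecticGroup (Fin m) F) (ρ : (κ → F) →ₗ[F] F) :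
    ∃ h : GL ιi F, ∀ x, (h : Matrix (Unit ⊕ (Fin m ⊕ Fin m)) (Unit ⊕ (Fin m ⊕ Fin m)) F) *ᵥ x = Sum.elim (fun _ => x (.inl ()) + ρ (inrP x)) ((s : Matrix κ κ F) *ᵥ inrP x) := by
  classical
  have hinjs : Function.Injective ((s : Matrix κ κ F).mulVec) := by
    apply Matrix.mulVec_injective_of_det_ne_zero
    rw [SymplecticGroup.det_eq_one s.2]
    exact one_ne_zero
  let T : (ιi → F) →ₗ[F] (ιi → F) :=
    { toFun := fun x => Sum.elim (fun _ => x (.inl ()) + ρ (inrP x)) ((s : Matrix κ κ F) *ᵥ inrP x)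
      map_add' := by
        intro x y
        funext i
        rcases i with i | i
        · simp [inrP_add]
          ring
        · simp [inrP_add, Matrix.mulVec_add]
      map_smul' := by
        intro c x
        funext i
        rcases i with i | i
        · simp [inrP_smul]
          ring
        · simp [inrP_smul, Matrix.mulVec_smul] }
  have hT : Function.Injective T := by
    rw [injective_iff_map_eq_zero]
    intro x hx
    have h1 : (s : Matrix κ κ F) *ᵥ inrP x = 0 := by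
      funext i
      exact congrFun hx (.inr i)
    have h3 : inrP x = 0 := hinjs (by rw [h1, Matrix.mulVec_zero])
    have h4 : x (.inl ()) + ρ (inrP x) = 0 := congrFun hx (.inl ())
    rw [h3, map_zero, add_zero] at h4
    rw [eq_decomp x, h3, h4, zero_smul, zero_add]
    funext i
    rcases i with i | i <;> rfl
  refine ⟨ofE (LinearEquiv.ofInjectiveEndo T hT), fun x => ?_⟩
  rw [mulVec_ofE, LinearEquiv.coe_ofInjectiveEndo]
  rfl

end Hub

end Cfsg.Agent.Lib.Classical.GraphAut.Char2Iso
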