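import Mathlib
import Cfsg.Agent.Lib.Classical.GraphAut.Char2Iso

/-!
# Involutory graph automorphisms of `PSL_n`: centralisers in characteristic two, continued
-/

set_option autoImplicit false
set_option linter.unusedSectionVars false
set_option linter.unusedSimpArgs false
set_option linter.unusedVariables false
set_option linter.style.haveILetI false

open scoped Matrix MatrixGroups
open Cfsg
open Cfsg.Agent.Lib.Classical.GraphAut.Basic Cfsg.Agent.Lib.Classical.GraphAut.Forms
open Cfsg.Agent.Lib.Classical.GraphAut.Models Cfsg.Agent.Lib.Classical.GraphAut.Char2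
open Cfsg.Agent.Lib.Classical.GraphAut.Char2Iso
open Cfsg.Agent.Lib.Classical.Symp.Basic
open Module

namespace Cfsg.Agent.Lib.Classical.GraphAut.Char2Main

variable {F : Type*} [Field F] [Fintype F] {n m : ℕ}

local notation "Pn" => Matrix.ProjectiveSpecialLinearGroup (Fin n) F
local notation "κ" => (Fin m ⊕ Fin m)
local notation "ιi" => (Unit ⊕ (Fin m ⊕ Fin m))
local notation "Mi" => Matrix (Unit ⊕ (Fin m ⊕ Fin m)) (Unit ⊕ (Fin m ⊕ Fin m)) F
local notation "Mk" => Matrix (Fin m ⊕ Fin m) (Fin m ⊕ Fin m) F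

theorem mulVec_mulVec_inv (g : GL ιi F) (x : ιi → F) : (g : Mi) *ᵥ (((g⁻¹ : GL ιi F) : Mi) *ᵥ x) = x := by
  rw [Matrix.mulVec_mulVec, ← Units.val_mul, mul_inv_cancel, Units.val_one, Matrix.one_mulVec]

theorem sympForm_eq_zero_right {x : κ → F} (h : ∀ y, sympForm m F x y = 0) : x = 0 :=
  (sympBilin_nondegenerate (m := m) (F := F)).1 x h

/-- Fixing `e₀` from the form modulo `e₀`. -/
theorem e₀_fixed {g : GL ιi F}
    (hs : ∀ u v, sympForm m F (inrP ((g : Mi) *ᵥ u)) (inrP ((g : Mi) *ᵥ v)) = sympForm m F (inrP u) (inrP v)) :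
    inrP ((g : Mi) *ᵥ e₀ m F) = 0 := by
  apply sympForm_eq_zero_right
  intro y
  have h1 := hs (e₀ m F) (((g⁻¹ : GL ιi F) : Mi) *ᵥ emb y)
  rw [mulVec_mulVec_inv, inrP_emb, inrP_e₀] at h1
  rw [h1, sympForm_apply]
  simp

theorem f₀_self (u : ιi → F) : f₀ m F u u = u (.inl ()) ^ 2 := by
  rw [f₀, sympForm_self, add_zero, pow_two]

theorem le_C₀_f₀ (h2 : (2 : F) = 0) : preserving (Units.coeHom Mi) (f₀ m F) ≤ C₀ m F := by
  intro g hg
  have hg' : ∀ u v, f₀ m F ((g : Mi) *ᵥ u) ((g : Mi) *ᵥ v) = f₀ m F u v := hg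
  have hR : ∀ u, ((g : Mi) *ᵥ u) (.inl ()) = u (.inl ()) := by
    intro u
    apply sq_inj_two h2
    rw [← f₀_self, ← f₀_self, hg']
  have hs : ∀ u v, sympForm m F (inrP ((g : Mi) *ᵥ u)) (inrP ((g : Mi) *ᵥ v)) = sympForm m F (inrP u) (inrP v) := by
    intro u v
    have h1 := hg' u v
    simp only [f₀, hR] at h1
    exact add_left_cancel h1
  refine ⟨?_, hs⟩
  rw [eq_decomp ((g : Mi) *ᵥ e₀ m F), e₀_fixed hs, hR]
  funext i
  rcases i with i | i <;> simp [e₀, emb]

/-- `q` of the odd form. -/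
theorem plus_add (h2 : (2 : F) = 0) (x y : κ → F) :
    quadFormPlus m F (x + y) = quadFormPlus m F x + quadFormPlus m F y + sympForm m F x y := by
  rw [sympForm_apply, quadFormPlus, quadFormPlus, quadFormPlus, ← Finset.sum_add_distrib, ← Finset.sum_add_distrib]
  refine Finset.sum_congr rfl fun i _ => ?_
  simp only [Pi.add_apply]
  linear_combination (x (.inl i) * y (.inr i)) * h2

theorem plus_smul (c : F) (x : κ → F) : quadFormPlus m F (c • x) = c ^ 2 * quadFormPlus m F x := by
  rw [quadFormPlus, quadFormPlus, Finset.mul_sum]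
  refine Finset.sum_congr rfl fun i _ => ?_
  simp only [Pi.smul_apply, smul_eq_mul]
  ring

theorem odd_eq (u : ιi → F) : quadFormOdd m F u = u (.inl ()) ^ 2 + quadFormPlus m F (inrP u) := rfl

theorem odd_add (h2 : (2 : F) = 0) (u v : ιi → F) :
    quadFormOdd m F (u + v) = quadFormOdd m F u + quadFormOdd m F v + sympForm m F (inrP u) (inrP v) := by
  rw [odd_eq, odd_eq, odd_eq, inrP_add, plus_add h2, Pi.add_apply]
  linear_combination (u (.inl ()) * v (.inl ())) * h2

theorem le_C₀_Q₀ (h2 : (2 : F) = 0) : isometryGroup F (quadFormOdd m F) ≤ C₀ m F := by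
  intro g hg
  have hg' : ∀ u, quadFormOdd m F ((g : Mi) *ᵥ u) = quadFormOdd m F u := fun u => hg u 0
  have hs : ∀ u v, sympForm m F (inrP ((g : Mi) *ᵥ u)) (inrP ((g : Mi) *ᵥ v)) = sympForm m F (inrP u) (inrP v) := by
    intro u v
    have h1 := hg' (u + v)
    rw [Matrix.mulVec_add, odd_add h2, odd_add h2, hg', hg'] at h1
    exact add_left_cancel h1
  refine ⟨?_, hs⟩
  have hz := e₀_fixed hs
  have h1 := hg' (e₀ m F)
  rw [odd_eq, odd_eq, hz, inrP_e₀, e₀_inl] at h1
  have h3 : ((g : Mi) *ᵥ e₀ m F) (.inl ()) = 1 := by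
    apply sq_inj_two h2
    rw [one_pow]
    simpa using h1
  rw [eq_decomp ((g : Mi) *ᵥ e₀ m F), hz, h3]
  funext i
  rcases i with i | i <;> simp [e₀, emb]

theorem sub_of_block {h : GL ιi F} {s : Mk} {c : (κ → F) → F}
    (hh : ∀ x, (h : Mi) *ᵥ x = Sum.elim (fun _ => x (.inl ()) + c (inrP x)) (s *ᵥ inrP x)) : sub (h : Mi) = s := by
  apply Matrix.mulVec_injective
  funext x
  rw [sub_mulVec, hh]
  rfl

/-- `O(f₀) ≅ Sp`. -/
theorem f0_equiv (h2 : (2 : F) = 0) :
    Nonempty (preserving (Units.coeHom Mi) (f₀ m F) ≃* Matrix.symplecticGroup (Fin m) F) := by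
  classical
  let Φ : preserving (Units.coeHom Mi) (f₀ m F) →* Matrix.symplecticGroup (Fin m) F :=
    (ψ m F).comp (Subgroup.inclusion (le_C₀_f₀ h2))
  have hΦ : ∀ g, ((Φ g : Matrix.symplecticGroup (Fin m) F) : Mk) = sub (((g : GL ιi F)) : Mi) := fun g => rfl
  have hb : Function.Bijective Φ := by
    constructor
    · rw [injective_iff_map_eq_one]
      rintro ⟨g, hg⟩ h1
      have hg' : ∀ u v, f₀ m F ((g : Mi) *ᵥ u) ((g : Mi) *ᵥ v) = f₀ m F u v := hg
      have h3 : sub (g : Mi) = 1 := by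
        have := congrArg (fun x : Matrix.symplecticGroup (Fin m) F => (x : Mk)) h1
        exact this
      have hC := le_C₀_f₀ h2 hg
      apply Subtype.ext
      apply Units.ext
      apply Matrix.mulVec_injective
      funext x
      change (g : Mi) *ᵥ x = (1 : Mi) *ᵥ x
      rw [Matrix.one_mulVec, eq_decomp ((g : Mi) *ᵥ x), inrP_of_C₀ hC, h3, Matrix.one_mulVec]
      have hR : ((g : Mi) *ᵥ x) (.inl ()) = x (.inl ()) := by
        apply sq_inj_two h2
        rw [← f₀_self, ← f₀_self, hg']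
      rw [hR]
      exact (eq_decomp x).symm
    · intro s
      obtain ⟨h, hh⟩ := exists_block s (0 : (κ → F) →ₗ[F] F)
      have hmem : h ∈ preserving (Units.coeHom Mi) (f₀ m F) := by
        intro u v
        change f₀ m F ((h : Mi) *ᵥ u) ((h : Mi) *ᵥ v) = f₀ m F u v
        rw [hh, hh, f₀, f₀]
        simp only [Sum.elim_inl, LinearMap.zero_apply, add_zero]
        congr 1
        exact mem_symplecticGroup_iff_forall.mp s.2 _ _
      refine ⟨⟨h, hmem⟩, Subtype.ext ?_⟩
      rw [hΦ]
      exact sub_of_block (s := (s : Mk)) (c := fun x => (0 : (κ → F) →ₗ[F] F) x) hh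
  exact ⟨MulEquiv.ofBijective Φ hb⟩

/-- `O(Q₀) ≅ Sp`. -/
theorem Q0_equiv (h2 : (2 : F) = 0) :
    Nonempty (isometryGroup F (quadFormOdd m F) ≃* Matrix.symplecticGroup (Fin m) F) := by
  classical
  let Φ : isometryGroup F (quadFormOdd m F) →* Matrix.symplecticGroup (Fin m) F :=
    (ψ m F).comp (Subgroup.inclusion (le_C₀_Q₀ h2))
  have hΦ : ∀ g, ((Φ g : Matrix.symplecticGroup (Fin m) F) : Mk) = sub (((g : GL ιi F)) : Mi) := fun g => rfl
  have hb : Function.Bijective Φ := by
    constructor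
    · rw [injective_iff_map_eq_one]
      rintro ⟨g, hg⟩ h1
      have hg' : ∀ u, quadFormOdd m F ((g : Mi) *ᵥ u) = quadFormOdd m F u := fun u => hg u 0
      have h3 : sub (g : Mi) = 1 := by
        have := congrArg (fun x : Matrix.symplecticGroup (Fin m) F => (x : Mk)) h1
        exact this
      have hC := le_C₀_Q₀ h2 hg
      apply Subtype.ext
      apply Units.ext
      apply Matrix.mulVec_injective
      funext x
      have hI : inrP ((g : Mi) *ᵥ x) = inrP x := by
        rw [inrP_of_C₀ hC, h3, Matrix.one_mulVec]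
      have hR : ((g : Mi) *ᵥ x) (.inl ()) = x (.inl ()) := by
        apply sq_inj_two h2
        have h5 := hg' x
        rw [odd_eq, odd_eq, hI] at h5
        exact add_right_cancel h5
      change (g : Mi) *ᵥ x = (1 : Mi) *ᵥ x
      rw [Matrix.one_mulVec, eq_decomp ((g : Mi) *ᵥ x), hR, hI]
      exact (eq_decomp x).symm
    · intro s
      have hs : ∀ u v, sympForm m F ((s : Mk) *ᵥ u) ((s : Mk) *ᵥ v) = sympForm m F u v :=
        mem_symplecticGroup_iff_forall.mp s.2
      obtain ⟨ρ, hρ⟩ := exists_linear_sqrt h2 (fun x : κ → F => quadFormPlus m F x + quadFormPlus m F ((s : Mk) *ᵥ x))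
        (by
          intro x y
          rw [Matrix.mulVec_add, plus_add h2, plus_add h2, hs]
          linear_combination (sympForm m F x y) * h2)
        (by
          intro c x
          rw [Matrix.mulVec_smul, plus_smul, plus_smul]
          ring)
      obtain ⟨h, hh⟩ := exists_block s ρ
      have hmem : h ∈ isometryGroup F (quadFormOdd m F) := by
        intro u _
        change quadFormOdd m F ((h : Mi) *ᵥ u) = quadFormOdd m F u
        rw [hh, odd_eq, odd_eq]
        change (u (.inl ()) + ρ (inrP u)) ^ 2 + quadFormPlus m F ((s : Mk) *ᵥ inrP u) = _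
        have h5 := hρ (inrP u)
        linear_combination h5 + (u (.inl ()) * ρ (inrP u) + quadFormPlus m F ((s : Mk) *ᵥ inrP u)) * h2
      refine ⟨⟨h, hmem⟩, Subtype.ext ?_⟩
      rw [hΦ]
      exact sub_of_block (s := (s : Mk)) (c := fun x => ρ x) hh
  exact ⟨MulEquiv.ofBijective Φ hb⟩

/-- `O(J) ≅ Sp`. -/
theorem J_equiv : Nonempty (preserving (Units.coeHom Mk) (sympForm m F) ≃* Matrix.symplecticGroup (Fin m) F) := by
  classical
  let Φ : preserving (Units.coeHom Mk) (sympForm m F) →* Matrix.symplecticGroup (Fin m) F :=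
    { toFun := fun g => ⟨((g : GL κ F) : Mk), mem_symplecticGroup_iff_forall.mpr g.2⟩
      map_one' := rfl
      map_mul' := fun a b => rfl }
  have hb : Function.Bijective Φ := by
    constructor
    · intro a b hab
      apply Subtype.ext
      apply Units.ext
      exact congrArg (fun x : Matrix.symplecticGroup (Fin m) F => (x : Mk)) hab
    · intro s
      have hd : (s : Mk).det ≠ 0 := by
        rw [SymplecticGroup.det_eq_one s.2]
        exact one_ne_zero
      refine ⟨⟨Matrix.GeneralLinearGroup.mkOfDetNeZero _ hd, mem_symplecticGroup_iff_forall.mp s.2⟩, ?_⟩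
      apply Subtype.ext
      rfl
  exact ⟨MulEquiv.ofBijective Φ hb⟩

/-- The symplectic transvection. -/
noncomputable def tT (w₀ : κ → F) : Matrix.symplecticGroup (Fin m) F :=
  ⟨sympTransvection m w₀ 1, sympTransvection_mem w₀ 1⟩

theorem tT_isTransvection {w₀ : κ → F} (hw₀ : w₀ ≠ 0) : IsTransvection ((tT w₀ : Matrix.symplecticGroup (Fin m) F) : Mk) := by
  have hJ : Matrix.J (Fin m) F *ᵥ w₀ ≠ 0 := by
    intro h
    apply hw₀
    apply sympForm_eq_zero_right
    intro y
    have h1 := LinearMap.BilinForm.IsAlt.neg_eq (sympBilin_isAlt (m := m) (F := F)) w₀ y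
    simp only [sympBilin_apply] at h1
    have h3 : sympForm m F y w₀ = 0 := by rw [sympForm, h, dotProduct_zero]
    rw [h3] at h1
    exact neg_eq_zero.mp h1
  have h3 : (Matrix.J (Fin m) F *ᵥ w₀) ⬝ᵥ w₀ = 0 := by
    rw [dotProduct_comm]
    exact sympForm_self w₀
  have h4 := Cfsg.Agent.Lib.Linalg.TransvectionForm.transvection_of_form hw₀ hJ h3
  have h5 : ((tT w₀ : Matrix.symplecticGroup (Fin m) F) : Mk) = 1 + Matrix.vecMulVec w₀ (Matrix.J (Fin m) F *ᵥ w₀) := by
    change sympTransvection m w₀ 1 = _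
    rw [sympTransvection, one_smul]
  rw [h5]
  exact h4

theorem tT_mulVec (w₀ x : κ → F) : ((tT w₀ : Matrix.symplecticGroup (Fin m) F) : Mk) *ᵥ x = x + (sympForm m F x w₀) • w₀ := by
  change sympTransvection m w₀ 1 *ᵥ x = _
  rw [sympTransvection_mulVec, one_mul]

theorem sympForm_comm (h2 : (2 : F) = 0) (x y : κ → F) : sympForm m F x y = sympForm m F y x := by
  have h1 := LinearMap.BilinForm.IsAlt.neg_eq (sympBilin_isAlt (m := m) (F := F)) x y
  simp only [sympBilin_apply] at h1
  rw [← h1]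
  linear_combination (sympForm m F x y) * h2

theorem sympForm_add_right (u x y : κ → F) : sympForm m F u (x + y) = sympForm m F u x + sympForm m F u y := by
  simp only [sympForm, Matrix.mulVec_add, dotProduct_add]

theorem sympForm_smul_right (u x : κ → F) (c : F) : sympForm m F u (c • x) = c * sympForm m F u x := by
  simp only [sympForm, Matrix.mulVec_smul, dotProduct_smul, smul_eq_mul]

theorem f₁_self (h2 : (2 : F) = 0) (w₀ u : κ → F) : f₁ m F w₀ u u = sympForm m F w₀ u ^ 2 := by
  rw [f₁, sympForm_self, zero_add, pow_two]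

/-- `O(f₁)` is the centraliser of a transvection. -/
theorem f1_equiv (h2 : (2 : F) = 0) {w₀ : κ → F} (hw₀ : w₀ ≠ 0) :
    Nonempty (preserving (Units.coeHom Mk) (f₁ m F w₀) ≃* Subgroup.centralizer ({tT w₀} : Set (Matrix.symplecticGroup (Fin m) F))) := by
  classical
  -- the facts about an element of `O(f₁)`
  have hfacts : ∀ g : GL κ F, (∀ u v, f₁ m F w₀ ((g : Mk) *ᵥ u) ((g : Mk) *ᵥ v) = f₁ m F w₀ u v) →
      (∀ u v, sympForm m F ((g : Mk) *ᵥ u) ((g : Mk) *ᵥ v) = sympForm m F u v) ∧ (g : Mk) *ᵥ w₀ = w₀ := by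
    intro g hg
    have hl : ∀ u, sympForm m F w₀ ((g : Mk) *ᵥ u) = sympForm m F w₀ u := by
      intro u
      apply sq_inj_two h2
      rw [← f₁_self h2, ← f₁_self h2, hg]
    have hs : ∀ u v, sympForm m F ((g : Mk) *ᵥ u) ((g : Mk) *ᵥ v) = sympForm m F u v := by
      intro u v
      have h1 := hg u v
      rw [f₁, f₁, hl, hl] at h1
      exact add_right_cancel h1
    refine ⟨hs, ?_⟩
    have h3 : (g : Mk) *ᵥ w₀ - w₀ = 0 := by
      apply sympForm_eq_zero_right
      intro y
      have h4 : sympForm m F ((g : Mk) *ᵥ w₀ - w₀) y = sympForm m F ((g : Mk) *ᵥ w₀) y - sympForm m F w₀ y := by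
        simp [sympForm, sub_dotProduct]
      rw [h4]
      have h5 : y = (g : Mk) *ᵥ (((g⁻¹ : GL κ F) : Mk) *ᵥ y) := by
        rw [Matrix.mulVec_mulVec, ← Units.val_mul, mul_inv_cancel, Units.val_one, Matrix.one_mulVec]
      rw [h5, hs, hl, sub_self]
    exact sub_eq_zero.mp h3
  -- commuting
  have hcomm : ∀ (s : Matrix.symplecticGroup (Fin m) F), (s : Mk) *ᵥ w₀ = w₀ → s * tT w₀ = tT w₀ * s := by
    intro s hs
    have hss : ∀ u v, sympForm m F ((s : Mk) *ᵥ u) ((s : Mk) *ᵥ v) = sympForm m F u v :=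
      mem_symplecticGroup_iff_forall.mp s.2
    apply Subtype.ext
    apply Matrix.mulVec_injective
    funext x
    change ((s : Mk) * ((tT w₀ : Matrix.symplecticGroup (Fin m) F) : Mk)) *ᵥ x = (((tT w₀ : Matrix.symplecticGroup (Fin m) F) : Mk) * (s : Mk)) *ᵥ x
    rw [← Matrix.mulVec_mulVec, ← Matrix.mulVec_mulVec, tT_mulVec, tT_mulVec, Matrix.mulVec_add, Matrix.mulVec_smul, hs]
    congr 2
    conv_rhs => rw [← hs]
    rw [hss]
  let Φ : preserving (Units.coeHom Mk) (f₁ m F w₀) →* Subgroup.centralizer ({tT w₀} : Set (Matrix.symplecticGroup (Fin m) F)) :=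
    { toFun := fun g => ⟨⟨((g : GL κ F) : Mk), mem_symplecticGroup_iff_forall.mpr (hfacts _ g.2).1⟩, by
        rw [Subgroup.mem_centralizer_iff]
        rintro _ rfl
        exact (hcomm _ (hfacts _ g.2).2).symm⟩
      map_one' := rfl
      map_mul' := fun a b => rfl }
  have hb : Function.Bijective Φ := by
    constructor
    · intro a b hab
      apply Subtype.ext
      apply Units.ext
      have h1 := congrArg (fun x : Subgroup.centralizer ({tT w₀} : Set (Matrix.symplecticGroup (Fin m) F)) => ((x : Matrix.symplecticGroup (Fin m) F) : Mk)) hab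
      exact h1
    · rintro ⟨s, hs⟩
      rw [Subgroup.mem_centralizer_iff] at hs
      have hsc : s * tT w₀ = tT w₀ * s := (hs _ rfl).symm
      have hss : ∀ u v, sympForm m F ((s : Mk) *ᵥ u) ((s : Mk) *ᵥ v) = sympForm m F u v :=
        mem_symplecticGroup_iff_forall.mp s.2
      -- `s` fixes `w₀`
      have hkey : ∀ x, (sympForm m F x w₀) • ((s : Mk) *ᵥ w₀) = (sympForm m F ((s : Mk) *ᵥ x) w₀) • w₀ := by
        intro x
        have h1 := congrArg (fun M : Matrix.symplecticGroup (Fin m) F => ((M : Mk)) *ᵥ x) hsc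
        change ((s : Mk) * ((tT w₀ : Matrix.symplecticGroup (Fin m) F) : Mk)) *ᵥ x = (((tT w₀ : Matrix.symplecticGroup (Fin m) F) : Mk) * (s : Mk)) *ᵥ x at h1
        rw [← Matrix.mulVec_mulVec, ← Matrix.mulVec_mulVec, tT_mulVec, tT_mulVec, Matrix.mulVec_add, Matrix.mulVec_smul] at h1
        exact add_left_cancel h1
      obtain ⟨x₀, hx₀⟩ : ∃ x, sympForm m F x w₀ = 1 := by
        by_contra hcon
        push Not at hcon
        apply hw₀
        apply sympForm_eq_zero_right
        intro y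
        rw [sympForm_comm h2]
        by_contra hy
        apply hcon ((sympForm m F y w₀)⁻¹ • y)
        have : sympForm m F ((sympForm m F y w₀)⁻¹ • y) w₀ = (sympForm m F y w₀)⁻¹ * sympForm m F y w₀ := by
          simp [sympForm, smul_dotProduct]
        rw [this, inv_mul_cancel₀ hy]
      have h3 := hkey x₀
      rw [hx₀, one_smul] at h3
      obtain ⟨c, hc⟩ : ∃ c, c = sympForm m F ((s : Mk) *ᵥ x₀) w₀ := ⟨_, rfl⟩
      rw [← hc] at h3
      have h4 : c * c = 1 := by
        have h5 := hss x₀ w₀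
        rw [h3, sympForm_smul_right, ← hc, hx₀] at h5
        exact h5
      have hc1 : c = 1 := by
        apply sq_inj_two h2
        rw [pow_two, h4, one_pow]
      rw [hc1, one_smul] at h3
      have hl : ∀ u, sympForm m F w₀ ((s : Mk) *ᵥ u) = sympForm m F w₀ u := by
        intro u
        conv_lhs => rw [← h3]
        rw [hss]
      have hd : (s : Mk).det ≠ 0 := by
        rw [SymplecticGroup.det_eq_one s.2]
        exact one_ne_zero
      refine ⟨⟨Matrix.GeneralLinearGroup.mkOfDetNeZero _ hd, ?_⟩, ?_⟩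
      · intro u v
        change f₁ m F w₀ ((s : Mk) *ᵥ u) ((s : Mk) *ᵥ v) = f₁ m F w₀ u v
        rw [f₁, f₁, hss, hl, hl]
      · apply Subtype.ext
        apply Subtype.ext
        rfl
  exact ⟨MulEquiv.ofBijective Φ hb⟩

end Cfsg.Agent.Lib.Classical.GraphAut.Char2Main
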