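import Mathlib
import Cfsg.Agent.Lib.Classical.GraphAut.Char2Main

/-!
# Involutory graph automorphisms of `PSL_n`: odd dimension; even dimension and even characteristic
-/

set_option autoImplicit false
set_option linter.unusedSectionVars false
set_option linter.unusedSimpArgs false
set_option linter.unusedVariables false
set_option linter.style.haveILetI false

open scoped Matrix MatrixGroups
open Cfsg
open Cfsg.Agent.Lib.Classical.GraphAut.Basic Cfsg.Agent.Lib.Classical.GraphAut.Forms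
open Cfsg.Agent.Lib.Classical.GraphAut.Models Cfsg.Agent.Lib.Classical.GraphAut.Char2
open Cfsg.Agent.Lib.Classical.GraphAut.Char2Iso Cfsg.Agent.Lib.Classical.GraphAut.Char2Main
open Cfsg.Agent.Lib.Classical.Symp.Basic
open Module

namespace Cfsg.Agent.Lib.Classical.GraphAut.Final

variable {F : Type*} [Field F] [Fintype F] {n m : ℕ}

local notation "Pn" => Matrix.ProjectiveSpecialLinearGroup (Fin n) F
local notation "κ" => (Fin m ⊕ Fin m)
local notation "ιi" => (Unit ⊕ (Fin m ⊕ Fin m))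
local notation "Mk" => Matrix (Fin m ⊕ Fin m) (Fin m ⊕ Fin m) F

theorem sympForm_smul_both (c : F) (u v : κ → F) : sympForm m F (c • u) (c • v) = c ^ 2 * sympForm m F u v := by
  simp only [sympForm, Matrix.mulVec_smul, dotProduct_smul, smul_dotProduct, smul_eq_mul]
  ring

theorem f₀_hom (c : F) (u v : ιi → F) : f₀ m F (c • u) (c • v) = c ^ 2 * f₀ m F u v := by
  simp only [f₀, Pi.smul_apply, smul_eq_mul]
  have h1 := sympForm_smul_both (m := m) c (fun i => u (.inr i)) (fun i => v (.inr i))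
  have e1 : ∀ w : ιi → F, (fun i => c * w (.inr i)) = c • (fun i : κ => w (.inr i)) := fun w => rfl
  rw [e1, e1, h1]
  ring

theorem odd_hom (c : F) (u : ιi → F) : quadFormOdd m F (c • u) = c ^ 2 * quadFormOdd m F u := by
  rw [odd_eq, odd_eq, inrP_smul, plus_smul, Pi.smul_apply, smul_eq_mul]
  ring

theorem f₁_hom (w₀ : κ → F) (c : F) (u v : κ → F) : f₁ m F w₀ (c • u) (c • v) = c ^ 2 * f₁ m F w₀ u v := by
  rw [f₁, f₁, sympForm_smul_both, sympForm_smul_right, sympForm_smul_right]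
  ring

/-- The centraliser, odd dimension, characteristic two. -/
theorem cent_odd_char2 (hn : 2 ≤ n) (h2 : (2 : F) = 0) {B : GL (Fin n) F} (hS : IsSy B) (hA : ¬ IsAl B) (hnm : n = 2 * m + 1) :
    Nonempty (↥(inndiagPSL n F ⊓ Subgroup.centralizer {(gaP B⁻¹ : MulAut Pn)}) ≃* PGO F (quadFormOdd m F)) := by
  obtain ⟨P, hP⟩ := canon_odd h2 hS hA hnm
  obtain ⟨e₁⟩ := cent_iso_bil hn B P (f₀ m F) 1 (fun x y => by
    rw [hP]
    simp only [Units.val_one, one_mul])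
  obtain ⟨e₂⟩ := proj_sim_bil h2 (f₀ m F) f₀_hom ⟨e₀ m F, e₀ m F, by
    rw [f₀_self]
    simp⟩
  obtain ⟨e₃⟩ := f0_equiv (m := m) (F := F) h2
  obtain ⟨e₄⟩ := Q0_equiv (m := m) (F := F) h2
  obtain ⟨e₅⟩ := proj_sim_quad h2 (quadFormOdd m F) odd_hom ⟨e₀ m F, by
    rw [odd_eq, inrP_e₀]
    simp [quadFormPlus]⟩
  exact ⟨e₁.trans (e₂.trans (e₃.trans (e₄.symm.trans e₅.symm)))⟩

/-- **Odd dimension.** -/
theorem odd_main (hn : 3 ≤ n) (hnm : n = 2 * m + 1) (γ γ' : MulAut Pn) (hγ : IsGraphAutClassPSL γ) (hγ2 : orderOf γ = 2)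
    (hγ' : IsGraphAutClassPSL γ') (hγ'2 : orderOf γ' = 2) :
    Nonempty (↥(inndiagPSL n F ⊓ Subgroup.centralizer {γ}) ≃* PGO F (quadFormOdd m F)) ∧ IsConjUnder (inndiagPSL n F) γ γ' := by
  have hn2 : 2 ≤ n := by omega
  have hnot : ∀ B : GL (Fin n) F, ¬ IsAl B := by
    intro B hA
    obtain ⟨t, ht⟩ := even_of_alt hA
    omega
  obtain ⟨B, rfl, hB⟩ := inv_data hγ hγ2
  obtain ⟨B', rfl, hB'⟩ := inv_data hγ' hγ'2
  obtain ⟨hS, hA⟩ := hB.resolve_left (hnot B)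
  obtain ⟨hS', hA'⟩ := hB'.resolve_left (hnot B')
  by_cases h2 : (2 : F) = 0
  · refine ⟨cent_odd_char2 hn2 h2 hS hA hnm, ?_⟩
    obtain ⟨P, hP⟩ := canon_odd h2 hS hA hnm
    obtain ⟨P', hP'⟩ := canon_odd h2 hS' hA' hnm
    exact conj_of_model hn2 (f₀ m F) P P' 1 1 (fun x y => by
      rw [hP]
      simp only [Units.val_one, one_mul]) (fun x y => by
      rw [hP']
      simp only [Units.val_one, one_mul])
  · obtain ⟨P, c, hP⟩ := model_odd h2 hS hnm
    obtain ⟨P', c', hP'⟩ := model_odd h2 hS' hnm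
    exact ⟨cent_iso_quad hn2 h2 hS P _ c hP, conj_of_quad hn2 h2 hS hS' _ P P' c c' hP hP'⟩

/-- The form `f₁` as a bilinear form. -/
noncomputable def f₁B (w₀ : κ → F) : LinearMap.BilinForm F (κ → F) :=
  sympBilin m F + LinearMap.BilinForm.linMulLin (sympBilin m F w₀) (sympBilin m F w₀)

theorem f₁B_apply (w₀ u v : κ → F) : f₁B w₀ u v = f₁ m F w₀ u v := by
  rw [f₁B, LinearMap.add_apply, LinearMap.add_apply, LinearMap.BilinForm.linMulLin_apply]
  rfl

theorem f₁B_nondeg (h2 : (2 : F) = 0) (w₀ y : κ → F) (h : ∀ x, f₁B w₀ x y = 0) : y = 0 := by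
  obtain ⟨c, hc⟩ : ∃ c, c = sympForm m F w₀ y := ⟨_, rfl⟩
  have h1 : y + c • w₀ = 0 := by
    apply sympForm_eq_zero_right
    intro x
    have h3 := h x
    rw [f₁B_apply, f₁, ← hc] at h3
    rw [sympForm_comm h2, sympForm_add_right, sympForm_smul_right, sympForm_comm h2 x w₀]
    linear_combination h3
  have h3 : y = - (c • w₀) := eq_neg_of_add_eq_zero_left h1
  have h4 : c = 0 := by
    rw [hc, h3]
    simp [sympForm, Matrix.mulVec_neg, Matrix.mulVec_smul, dotProduct_neg, dotProduct_smul]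
    have := sympForm_self (m := m) w₀
    rw [sympForm] at this
    rw [this]
    simp
  rw [h4, zero_smul, add_zero] at h1
  exact h1

/-- **Even dimension, characteristic two.** -/
theorem even_main [CharP F 2] (hm : 2 ≤ m) (hnm : n = 2 * m) :
    ∃ (γ₁ γ₃ : MulAut Pn) (t : ↥(Matrix.symplecticGroup (Fin m) F)), IsTransvection (t : Mk) ∧ IsGraphAutClassPSL γ₁ ∧ orderOf γ₁ = 2 ∧ IsGraphAutClassPSL γ₃ ∧ orderOf γ₃ = 2 ∧ ¬ IsConjUnder (inndiagPSL n F) γ₁ γ₃ ∧ (∀ γ : MulAut Pn, IsGraphAutClassPSL γ → orderOf γ = 2 → IsConjUnder (inndiagPSL n F) γ₁ γ ∨ IsConjUnder (inndiagPSL n F) γ₃ γ) ∧ Nonempty (↥(inndiagPSL n F ⊓ Subgroup.centralizer {γ₁}) ≃* ↥(Matrix.symplecticGroup (Fin m) F)) ∧ Nonempty (↥(inndiagPSL n F ⊓ Subgroup.centralizer {γ₃}) ≃* ↥(Subgroup.centralizer ({t} : Set ↥(Matrix.symplecticGroup (Fin m) F)))) := by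
  classical
  have h2 : (2 : F) = 0 := CharTwo.two_eq_zero
  have hn3 : 3 ≤ n := by omega
  have hn : 2 ≤ n := by omega
  let i₀ : Fin m := ⟨0, by omega⟩
  let w₀ : κ → F := Pi.single (.inl i₀) 1
  have hw₀ : w₀ ≠ 0 := by
    intro h
    have := congrFun h (.inl i₀)
    simp [w₀] at this
  obtain ⟨u₀, hu₀⟩ : ∃ u, sympForm m F w₀ u ≠ 0 := by
    by_contra hcon
    push Not at hcon
    exact hw₀ (sympForm_eq_zero_right hcon)
  obtain ⟨B₁, P₁, hB₁, hP₁⟩ := exists_alt_rep (F := F) hnm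
  obtain ⟨B₃, hB₃⟩ := exists_B_of_bilin (n := n) (f₁B w₀) (f₁B_nondeg h2 w₀) (stdE m F hnm)
  have hP₃ : ∀ x y, f₁ m F w₀ (stdE m F hnm x) (stdE m F hnm y) = fB (B₃ : Matrix (Fin n) (Fin n) F) x y := by
    intro x y
    rw [hB₃, f₁B_apply]
  have hS₃ : IsSy B₃ := by
    intro x y
    rw [← hP₃, ← hP₃, f₁, f₁, sympForm_comm h2 (stdE m F hnm x) (stdE m F hnm y), mul_comm]
  have hA₃ : ¬ IsAl B₃ := by
    intro hA
    apply hu₀
    have h3 := hA ((stdE m F hnm).symm u₀)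
    rw [← hP₃, LinearEquiv.apply_symm_apply, f₁_self h2] at h3
    exact (pow_eq_zero_iff two_ne_zero).mp h3
  have hJne : ∃ u v, sympForm m F u v ≠ 0 := ⟨w₀, u₀, hu₀⟩
  have hf₁ne : ∃ u v, f₁ m F w₀ u v ≠ 0 := ⟨u₀, u₀, by
    rw [f₁_self h2]
    exact pow_ne_zero _ hu₀⟩
  refine ⟨gaP B₁⁻¹, gaP B₃⁻¹, tT w₀, tT_isTransvection hw₀, isGraph_gaP hn3 _, orderOf_of_alt hn3 hB₁, isGraph_gaP hn3 _,
    orderOf_of_sym hn3 hS₃, not_conj_alt hn hB₁ hA₃, ?_, ?_, ?_⟩
  · intro γ hγ hγ2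
    obtain ⟨B, rfl, hcase⟩ := inv_data hγ hγ2
    rcases hcase with hA | ⟨hS, hA⟩
    · left
      obtain ⟨P, hP⟩ := alt_model hA hnm
      exact conj_of_model hn (sympForm m F) P₁ P 1 1 (fun x y => by
        rw [hP₁]
        simp only [Units.val_one, one_mul]) (fun x y => by
        rw [hP]
        simp only [Units.val_one, one_mul])
    · right
      obtain ⟨P, hP⟩ := canon_even h2 hS hA hnm w₀ hw₀
      exact conj_of_model hn (f₁ m F w₀) (stdE m F hnm) P 1 1 (fun x y => by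
        rw [hP₃]
        simp only [Units.val_one, one_mul]) (fun x y => by
        rw [hP]
        simp only [Units.val_one, one_mul])
  · obtain ⟨e₁⟩ := cent_iso_bil hn B₁ P₁ (sympForm m F) 1 (fun x y => by
      rw [hP₁]
      simp only [Units.val_one, one_mul])
    obtain ⟨e₂⟩ := proj_sim_bil h2 (sympForm m F) sympForm_smul_both hJne
    obtain ⟨e₃⟩ := J_equiv (m := m) (F := F)
    exact ⟨e₁.trans (e₂.trans e₃)⟩
  · obtain ⟨e₁⟩ := cent_iso_bil hn B₃ (stdE m F hnm) (f₁ m F w₀) 1 (fun x y => by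
      rw [hP₃]
      simp only [Units.val_one, one_mul])
    obtain ⟨e₂⟩ := proj_sim_bil h2 (f₁ m F w₀) (f₁_hom w₀) hf₁ne
    obtain ⟨e₃⟩ := f1_equiv (m := m) (F := F) h2 hw₀
    exact ⟨e₁.trans (e₂.trans e₃)⟩

end Cfsg.Agent.Lib.Classical.GraphAut.Final
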